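import Mathlib

set_option autoImplicit false
set_option linter.all false

/-! A subgroup of index 112 is a point stabiliser. -/

namespace H64.RK

open MulAction

/-- orbit-stabiliser for a subgroup -/
theorem os {H : Type*} [Group H] [Finite H] {Λ : Type*} [MulAction H Λ] (S : Subgroup H) (x : Λ) :
    (orbit S x).ncard * Nat.card (S ⊓ stabilizer H x : Subgroup H) = Nat.card S := by
  have h1 : (stabilizer S x).map S.subtype = S ⊓ stabilizer H x := by
    ext g
    constructor
    · rintro ⟨s, hs, rfl⟩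
      exact ⟨s.2, hs⟩
    · rintro ⟨h2, h3⟩
      exact ⟨⟨g, h2⟩, h3, rfl⟩
  have h2 : Nat.card (S ⊓ stabilizer H x : Subgroup H) = Nat.card (stabilizer S x) := by
    rw [← h1]
    exact (Nat.card_congr ((stabilizer S x).equivMapOfInjective _ S.subtype_injective).toEquiv).symm
  rw [h2]
  have h3 := Nat.card_congr (orbitProdStabilizerEquivGroup S x)
  rw [Nat.card_prod] at h3
  exact h3

theorem stab_of_index {H : Type*} [Group H] [Finite H] {Λ : Type*} [MulAction H Λ] [Finite Λ]
    (adj : Λ → Λ → Prop) (hcH : Nat.card H = 3265920) (hcΛ : Nat.card Λ = 112)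
    (h30 : ∀ x y, adj x y → Nat.card (stabilizer H x ⊓ stabilizer H y : Subgroup H) = 972)
    (h81 : ∀ x y, ¬ adj x y → x ≠ y → Nat.card (stabilizer H x ⊓ stabilizer H y : Subgroup H) = 360)
    (hinv : ∀ (h : H) x y, adj x y → adj (h • x) (h • y))
    (hcl : ∀ x y, adj x y → {z | adj x z ∧ adj y z}.ncard ≤ 2)
    (K : Subgroup H) (hK : K.index = 112) : ∃ x : Λ, K ≤ stabilizer H x := by
  classical
  have hcK : Nat.card K = 29160 := by
    have := K.card_mul_index
    rw [hK, hcH] at this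
    omega
  haveI : Fact (Nat.Prime 3) := ⟨by norm_num⟩
  obtain ⟨Q0⟩ : Nonempty (Sylow 3 K) := inferInstance
  have hQ0 : Nat.card Q0 = 729 := by
    have h1 : 3 ^ 6 ∣ Nat.card K := by rw [hcK]; norm_num
    have h2 := Q0.card_eq_multiplicity
    rw [hcK] at h2
    rw [h2]
    have : (29160 : ℕ).factorization 3 = 6 := by
      rw [show (29160 : ℕ) = 3 ^ 6 * 40 by norm_num, Nat.factorization_mul (by norm_num) (by norm_num),
        Nat.Prime.factorization_pow (by norm_num)]
      simp [Nat.factorization_eq_zero_of_not_dvd]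
    rw [this]
    norm_num
  set P : Subgroup H := (Q0 : Subgroup K).map K.subtype with hP
  have hPK : P ≤ K := by
    rintro _ ⟨k, _, rfl⟩
    exact k.2
  have hcP : Nat.card P = 729 := by
    rw [← hQ0]
    exact (Nat.card_congr ((Q0 : Subgroup K).equivMapOfInjective _ K.subtype_injective).toEquiv).symm
  have hp : IsPGroup 3 P := IsPGroup.of_card (n := 6) (by rw [hcP]; norm_num)
  obtain ⟨x0, hx0⟩ := hp.nonempty_fixed_point_of_prime_not_dvd_card (α := Λ) (by rw [hcΛ]; norm_num)
  have hPx : P ≤ stabilizer H x0 := fun g hg => hx0 ⟨g, hg⟩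
  refine ⟨x0, ?_⟩
  have o1 := os K x0
  have hfin : ∀ (S : Subgroup H) (x : Λ), (orbit S x).Finite := fun S x => Set.toFinite _
  have hm : (orbit K x0).ncard ≤ 40 := by
    have h1 : Nat.card P ≤ Nat.card (K ⊓ stabilizer H x0 : Subgroup H) :=
      Subgroup.card_le_of_le (le_inf hPK hPx)
    rw [hcP] at h1
    rw [hcK] at o1
    by_contra hc
    have h2 : 41 ≤ (orbit K x0).ncard := by omega
    have h3 := Nat.mul_le_mul h2 h1
    omega
  -- all elements of the orbit are adjacent to x0
  have key : ∀ y ∈ orbit K x0, y ≠ x0 → adj x0 y := by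
    intro y hy hne
    by_contra hna
    have o2 := os P y
    have h2 : Nat.card (P ⊓ stabilizer H y : Subgroup H) ∣ 360 := by
      rw [← h81 x0 y hna (Ne.symm hne)]
      exact Subgroup.card_dvd_of_le (inf_le_inf_right _ hPx)
    have h3 : Nat.card (P ⊓ stabilizer H y : Subgroup H) ∣ 729 := by
      rw [← hcP]; exact Subgroup.card_dvd_of_le inf_le_left
    have h4 : Nat.card (P ⊓ stabilizer H y : Subgroup H) ∣ 9 := by
      have := Nat.dvd_gcd h2 h3
      exact this
    have h5 := Nat.le_of_dvd (by norm_num) h4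
    have h6 : (orbit P y).ncard ≤ (orbit K x0).ncard := by
      apply Set.ncard_le_ncard _ (hfin _ _)
      rintro _ ⟨p, rfl⟩
      obtain ⟨k, rfl⟩ := hy
      exact ⟨⟨p, hPK p.2⟩ * k, mul_smul _ _ _⟩
    rw [hcP] at o2
    have h7 : (orbit P y).ncard ≤ 40 := h6.trans hm
    have h8 := Nat.mul_le_mul h7 h5
    omega
  intro k hk
  by_contra hkx
  have hy : k • x0 ∈ orbit K x0 := ⟨⟨k, hk⟩, rfl⟩
  have hyne : k • x0 ≠ x0 := hkx
  set y := k • x0 with hydef
  have hadj := key y hy hyne
  -- clique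
  have hsub : orbit K x0 ⊆ {z | adj x0 z ∧ adj y z} ∪ {x0, y} := by
    rintro z hz
    by_cases h1 : z = x0
    · right; left; exact h1
    by_cases h2 : z = y
    · right; right; exact h2
    left
    refine ⟨key z hz h1, ?_⟩
    have h3 : k⁻¹ • z ∈ orbit K x0 := by
      obtain ⟨k', rfl⟩ := hz
      exact ⟨⟨k, hk⟩⁻¹ * k', mul_smul _ _ _⟩
    have h4 : k⁻¹ • z ≠ x0 := fun h => h2 (by rw [hydef, ← h, smul_inv_smul])
    have h5 := hinv k _ _ (key _ h3 h4)
    rwa [smul_inv_smul] at h5
  have hm4 : (orbit K x0).ncard ≤ 4 := by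
    refine (Set.ncard_le_ncard hsub (Set.toFinite _)).trans ((Set.ncard_union_le _ _).trans ?_)
    have h1 := hcl x0 y hadj
    have h2 : ({x0, y} : Set Λ).ncard ≤ 2 := (Set.ncard_insert_le _ _).trans (by simp)
    omega
  have o3 := os (K ⊓ stabilizer H x0) y
  have h7 : (orbit (K ⊓ stabilizer H x0 : Subgroup H) y).ncard ≤ 3 := by
    have h8 : orbit (K ⊓ stabilizer H x0 : Subgroup H) y ⊆ orbit K x0 \ {x0} := by
      rintro _ ⟨g, rfl⟩
      refine ⟨⟨⟨g, g.2.1⟩ * ⟨k, hk⟩, mul_smul _ _ _⟩, ?_⟩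
      intro h9
      have h9' : (g : H) • y = x0 := h9
      have h10 : (g : H) • x0 = x0 := g.2.2
      exact hyne (MulAction.injective (g : H) (h9'.trans h10.symm))
    have h9 := Set.ncard_le_ncard h8 (Set.toFinite _)
    have h10 : (orbit K x0 \ {x0}).ncard + 1 = (orbit K x0).ncard :=
      Set.ncard_diff_singleton_add_one (mem_orbit_self x0) (hfin _ _)
    omega
  have h8 : Nat.card (K ⊓ stabilizer H x0 ⊓ stabilizer H y : Subgroup H) ≤ 972 := by
    rw [← h30 x0 y hadj]
    exact Subgroup.card_le_of_le (inf_le_inf_right _ inf_le_right)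
  have h9 := Nat.mul_le_mul h7 h8
  rw [o3] at h9
  have h10 := Nat.mul_le_mul hm4 h9
  rw [o1, hcK] at h10
  omega

end H64.RK
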