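import Cfsg.Agent.Lib.H64.RK.Data
set_option autoImplicit false
set_option linter.all false
set_option maxRecDepth 100000
namespace H64.RK
open H63.PC
theorem tree_ok : troot.chk H63.McL.MT.get LM CM HST.get 0 0 = true := by decide +kernel
end H64.RK
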