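import Cfsg.Agent.Lib.H64.RK.Chk
import Cfsg.Agent.Lib.H64.RK.Idx
import Cfsg.Agent.Lib.H64.RK.Tree
import Cfsg.Agent.Lib.H64.MCG

set_option autoImplicit false
set_option linter.all false
set_option maxRecDepth 10000

/-! The point stabiliser acting on 112 points. -/

namespace H64.RK

open H63.PC H63.OT H63.MTb MulAction
open H63.McL (G ψ ψ_inj card_G simple MT A mem_A pres rs TO πs X_tr V V_mem V_inj ψ_spec toCo u0 w1 w2 f1 f2 sx sy st)
open H35.Net (force force_eq)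

/-- the point stabiliser -/
noncomputable def G0 : Subgroup G := (stabilizer (Equiv.Perm (Fin 275)) (0 : Fin 275)).comap ψ

theorem mem_G0 {g : G} : g ∈ G0 ↔ ψ g 0 = 0 := Iff.rfl

/-- the points -/
abbrev Lam := {i : Fin 275 // LM.testBit i = true}

theorem pr (g : G) (i j : Fin 275) : (MT.get (ψ g i)).testBit (ψ g j) = (MT.get i).testBit j := pres g i j

theorem LM_inv {g : G} (hg : g ∈ G0) (i : Fin 275) : LM.testBit (ψ g i) = LM.testBit i := by
  have h := pr g 0 i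
  have h0 : ψ g 0 = 0 := hg
  rw [h0] at h
  have e : MT.get ((0 : Fin 275) : ℕ) = LM := LM_eq
  rwa [e] at h

noncomputable instance actL : MulAction G0 Lam where
  smul s u := ⟨ψ s u.1, by rw [LM_inv s.2]; exact u.2⟩
  one_smul u := Subtype.ext (by
    show ψ ((1 : G0) : G) u.1 = u.1
    rw [Subgroup.coe_one, map_one]; rfl)
  mul_smul s t u := Subtype.ext (by
    show ψ ((s * t : G0) : G) u.1 = ψ s (ψ t u.1)
    rw [Subgroup.coe_mul, map_mul]; rfl)

theorem smul_coe (s : G0) (u : Lam) : ((s • u : Lam) : Fin 275) = ψ s u.1 := rfl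

/-- adjacency -/
def adj (u v : Lam) : Prop := (MT.get u.1).testBit v.1 = true

theorem adj_inv (s : G0) (u v : Lam) : adj (s • u) (s • v) ↔ adj u v := by
  unfold adj
  rw [smul_coe, smul_coe, pr]

theorem MT_symm (i j : Fin 275) : (MT.get i).testBit j = (MT.get j).testBit i := by
  apply Bool.eq_iff_iff.mpr
  rw [H63.McL.bit_iff i.2 j.2, H63.McL.bit_iff j.2 i.2, H33.Leech1.dot_comm]

theorem MT_irr (i : Fin 275) : (MT.get i).testBit i = false := (H63.McL.row_spec i.2).2.2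

theorem adj_symm {u v : Lam} (h : adj u v) : adj v u := by
  unfold adj at h ⊢
  rw [MT_symm]; exact h

theorem adj_irr (u : Lam) : ¬ adj u u := by
  unfold adj
  rw [MT_irr]; simp

/-! ### masks -/

theorem land_bt {a b i : ℕ} : (Nat.land a b).testBit i = true ↔ a.testBit i = true ∧ b.testBit i = true := by
  have e : Nat.land a b = a &&& b := rfl
  rw [e, Nat.testBit_and, Bool.and_eq_true]

theorem lor_bt {a b i : ℕ} : (Nat.lor a b).testBit i = true ↔ a.testBit i = true ∨ b.testBit i = true := by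
  have e : Nat.lor a b = a ||| b := rfl
  rw [e, Nat.testBit_or, Bool.or_eq_true]

theorem CM_iff (i : Fin 275) : CM.testBit i = true ↔ (i ≠ 0 ∧ LM.testBit i = false) := by
  have h1 := congrArg (fun x => x.testBit (i : ℕ)) CM_eq
  have e : Nat.xor (Nat.xor LM CM) 1 = (LM ^^^ CM) ^^^ 1 := rfl
  have h2 := congrArg (fun x => x.testBit (i : ℕ)) LC
  have e2 : Nat.land LM CM = LM &&& CM := rfl
  simp only [e, Nat.testBit_xor, Nat.testBit_two_pow_sub_one, i.2, decide_true] at h1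
  simp only [e2, Nat.testBit_and, Nat.zero_testBit] at h2
  have h3 : (1 : ℕ).testBit (i : ℕ) = decide (i = 0) := by
    rw [← pow_zero 2, Nat.testBit_two_pow]
    apply decide_eq_decide.mpr
    rw [eq_comm, Fin.ext_iff]
    rfl
  rw [h3] at h1
  cases hL : LM.testBit (i : ℕ) <;> cases hC : CM.testBit (i : ℕ) <;> rw [hL, hC] at h1 h2 <;>
    by_cases h0 : i = 0 <;> simp_all

theorem L0 : LM.testBit ((0 : Fin 275) : ℕ) = false := by
  have h := MT_irr 0
  have e : MT.get ((0 : Fin 275) : ℕ) = LM := LM_eq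
  rwa [e] at h

theorem CM_inv {g : G} (hg : g ∈ G0) (i : Fin 275) : CM.testBit (ψ g i) = CM.testBit i := by
  apply Bool.eq_iff_iff.mpr
  rw [CM_iff, CM_iff, LM_inv hg]
  have h0 : ψ g 0 = 0 := hg
  have : ψ g i ≠ 0 ↔ i ≠ 0 := by
    rw [not_iff_not]
    constructor
    · intro h; rw [← h0] at h; exact (ψ g).injective h
    · intro h; rw [h, h0]
  rw [this]

/-! ### transitivity -/

theorem sx_mem : sx ∈ ψ.range := ⟨_, H64.MCG.s_eq (rs (some .x)) H64.MCG.e_x⟩
theorem sy_mem : sy ∈ ψ.range := ⟨_, H64.MCG.s_eq (rs (some .y)) H64.MCG.e_y⟩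
theorem st_mem : st ∈ ψ.range := ⟨_, H64.MCG.s_eq (rs (some .t)) H64.MCG.e_t⟩

theorem reach_of {ws : List (List H63.McL.Lo)} {l : List ℕ} (hb : (ws.all fun w => w.all H63.McL.bas) = true)
    (hf : fixW TO ws l = true) {b k : ℕ} (hbn : b < 275) {q : Fin 275}
    (hq : (reachW TO ws 275 k (Nat.shiftLeft 1 b)).testBit q = true) :
    ∃ g : G, (∀ c : Fin 275, (c : ℕ) ∈ l → ψ g c = c) ∧ ψ g ⟨b, hbn⟩ = q := by
  have hK : ∀ w ∈ ws, (w.map πs).prod ∈ ψ.range ⊓ Fx 275 l := by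
    intro w hw
    refine ⟨H63.McL.ws_mem sx_mem sy_mem st_mem hb w hw, fun b' hb' => ?_⟩
    apply Fin.ext
    rw [← evw_spec rs]
    exact fixW_spec hf w hw b' hb'
  obtain ⟨σ, ⟨⟨g, rfl⟩, h2⟩, h3⟩ := reachW_spec (b := ⟨b, hbn⟩) rs hK (R := Nat.shiftLeft 1 b) (by
    intro q hq
    rw [one_shift_testBit, decide_eq_true_eq] at hq
    exact ⟨1, one_mem _, hq.symm⟩) q hq
  exact ⟨g, h2, Fin.ext h3⟩

theorem sub_of {A B i : ℕ} (h : Nat.beq (Nat.land A B) B = true) (hi : B.testBit i = true) : A.testBit i = true := by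
  rw [← Nat.eq_of_beq_eq_true h, land_bt] at hi
  exact hi.1

/-- the first point -/
def p22 : Lam := ⟨⟨22, by norm_num⟩, bt_one.mp (Nat.eq_of_beq_eq_true n9)⟩
/-- the second point -/
def p28 : Lam := ⟨⟨28, by norm_num⟩, (land_bt.1 (bt_one.mp (Nat.eq_of_beq_eq_true n11))).1⟩
/-- the third point -/
def p24 : Lam := ⟨⟨24, by norm_num⟩, bt_one.mp (Nat.eq_of_beq_eq_true n12)⟩

theorem tt1 (v : Lam) : ∃ s : G0, s • p22 = v := by
  obtain ⟨g, h1, h2⟩ := reach_of (ws := w1) (l := [0]) (by decide) f1 (b := 22) (k := 8) (by norm_num)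
    (sub_of T1 v.2)
  exact ⟨⟨g, h1 0 (by simp)⟩, Subtype.ext h2⟩

theorem F1 (u v : Lam) : ∃ s : G0, s • u = v := by
  obtain ⟨s, hs⟩ := tt1 u
  obtain ⟨t, ht⟩ := tt1 v
  exact ⟨t * s⁻¹, by rw [mul_smul, ← hs, inv_smul_smul, ht]⟩

theorem tt2 (v : Lam) (h : adj p22 v) : ∃ s : G0, s • p22 = p22 ∧ s • p28 = v := by
  obtain ⟨g, h1, h2⟩ := reach_of (ws := w2) (l := [22, 0]) (by decide) f2 (b := 28) (k := 6) (by norm_num)
    (sub_of T2 (land_bt.2 ⟨v.2, h⟩))
  exact ⟨⟨g, h1 0 (by simp)⟩, Subtype.ext (h1 ⟨22, by norm_num⟩ (by simp)), Subtype.ext h2⟩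

theorem tt3 (v : Lam) (h : ¬ adj p22 v) (hne : v ≠ p22) : ∃ s : G0, s • p22 = p22 ∧ s • p24 = v := by
  have h3 : (Nat.lor (Nat.lor (reachW TO w2 275 8 (Nat.shiftLeft 1 24)) (Nat.shiftLeft 1 22)) (MT.get 22)).testBit
      v.1 = true := by
    rw [Nat.eq_of_beq_eq_true T3, lor_bt]
    right; exact v.2
  rw [lor_bt, lor_bt, one_shift_testBit, decide_eq_true_eq] at h3
  rcases h3 with (h3 | h3) | h3
  · obtain ⟨g, h1, h2⟩ := reach_of (ws := w2) (l := [22, 0]) (by decide) f2 (b := 24) (k := 8) (by norm_num) h3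
    exact ⟨⟨g, h1 0 (by simp)⟩, Subtype.ext (h1 ⟨22, by norm_num⟩ (by simp)), Subtype.ext h2⟩
  · exact absurd (Subtype.ext (Fin.ext h3)) hne
  · exact absurd h3 h

theorem F2 {u v u' v' : Lam} (h : adj u v) (h' : adj u' v') : ∃ s : G0, s • u = u' ∧ s • v = v' := by
  have key : ∀ {u v : Lam}, adj u v → ∃ s : G0, s • p22 = u ∧ s • p28 = v := by
    intro u v h
    obtain ⟨s, hs⟩ := tt1 u
    have h1 : adj p22 (s⁻¹ • v) := by
      rw [← adj_inv s, smul_inv_smul, hs]; exact h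
    obtain ⟨t, h2, h3⟩ := tt2 _ h1
    exact ⟨s * t, by rw [mul_smul, h2, hs], by rw [mul_smul, h3, smul_inv_smul]⟩
  obtain ⟨s, h1, h2⟩ := key h
  obtain ⟨t, h3, h4⟩ := key h'
  exact ⟨t * s⁻¹, by rw [mul_smul, ← h1, inv_smul_smul, h3], by rw [mul_smul, ← h2, inv_smul_smul, h4]⟩

theorem F3 {u v u' v' : Lam} (h : ¬ adj u v) (hn : u ≠ v) (h' : ¬ adj u' v') (hn' : u' ≠ v') :
    ∃ s : G0, s • u = u' ∧ s • v = v' := by
  have key : ∀ {u v : Lam}, ¬ adj u v → u ≠ v → ∃ s : G0, s • p22 = u ∧ s • p24 = v := by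
    intro u v h hn
    obtain ⟨s, hs⟩ := tt1 u
    have h1 : ¬ adj p22 (s⁻¹ • v) := by
      rw [← adj_inv s, smul_inv_smul, hs]; exact h
    have h1' : s⁻¹ • v ≠ p22 := by
      intro h5
      apply hn
      rw [← hs, ← h5, smul_inv_smul]
    obtain ⟨t, h2, h3⟩ := tt3 _ h1 h1'
    exact ⟨s * t, by rw [mul_smul, h2, hs], by rw [mul_smul, h3, smul_inv_smul]⟩
  obtain ⟨s, h1, h2⟩ := key h hn
  obtain ⟨t, h3, h4⟩ := key h' hn'
  exact ⟨t * s⁻¹, by rw [mul_smul, ← h1, inv_smul_smul, h3], by rw [mul_smul, ← h2, inv_smul_smul, h4]⟩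

theorem F4 {x : Fin 275} (hx : CM.testBit x = true) : ∃ s : G0, ψ s ⟨1, by norm_num⟩ = x := by
  obtain ⟨g, h1, h2⟩ := reach_of (ws := w1) (l := [0]) (by decide) f1 (b := 1) (k := 10) (by norm_num)
    (sub_of T4 hx)
  exact ⟨⟨g, h1 0 (by simp)⟩, h2⟩

theorem tt0 (i j : Fin 275) : ∃ g : G, ψ g i = j := by
  obtain ⟨g, h1, h2, h3⟩ := X_tr (V_mem i) (V_mem j)
  have h4 : g • Cfsg.Spor.leechV = Cfsg.Spor.leechV := by
    have h5 : Cfsg.Spor.leechV = -u0 := by unfold u0; rw [neg_neg]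
    rw [h5, H9.LeechGood.co0_neg, h1]
  have hm : (g : Equiv.Perm Cfsg.leechLattice) ∈ Cfsg.Spor.McL := ⟨⟨g.2, h4⟩, h2⟩
  refine ⟨(⟨_, hm⟩ : G), ?_⟩
  apply V_inj
  rw [ψ_spec]
  exact h3

/-! ### counting -/

theorem cnt_eq (W : ℕ) : cntM W 275 = (Finset.univ.filter fun i : Fin 275 => W.testBit i = true).card := by
  rw [cntM_spec, Finset.card_filter]

theorem card_Lam : Nat.card Lam = 112 := by
  rw [Nat.card_eq_fintype_card, Fintype.card_subtype, ← cnt_eq, n1]

/-- number of points of Lam with a property -/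
theorem lam_ncard (P : Fin 275 → Prop) : {v : Lam | P v.1}.ncard = {i : Fin 275 | LM.testBit i = true ∧ P i}.ncard := by
  rw [← Set.ncard_image_of_injective _ Subtype.val_injective]
  congr 1
  ext i
  constructor
  · rintro ⟨v, hv, rfl⟩; exact ⟨v.2, hv⟩
  · rintro ⟨h1, h2⟩; exact ⟨⟨i, h1⟩, h2, rfl⟩

theorem ncard_mask (W : ℕ) : {i : Fin 275 | W.testBit i = true}.ncard = cntM W 275 := by
  classical
  rw [cnt_eq, ← Set.ncard_coe_finset]
  congr 1
  ext i; simp

theorem deg (u : Lam) : {v | adj u v}.ncard = 30 := by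
  obtain ⟨s, rfl⟩ := tt1 u
  have h1 : {v | adj (s • p22) v} = (fun v => s • v) '' {v | adj p22 v} := by
    ext v
    constructor
    · intro h
      exact ⟨s⁻¹ • v, by rw [Set.mem_setOf_eq, ← adj_inv s, smul_inv_smul]; exact h, smul_inv_smul _ _⟩
    · rintro ⟨v, h, rfl⟩
      exact (adj_inv _ _ _).2 h
  rw [h1, Set.ncard_image_of_injective _ (MulAction.injective s)]
  rw [← n3, ← ncard_mask]
  refine (lam_ncard fun i => (MT.get 22).testBit i = true).trans ?_
  congr 1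
  ext i
  exact land_bt.symm

theorem com {u v : Lam} (h : adj u v) : {w | adj u w ∧ adj v w}.ncard = 2 := by
  have h28 : adj p22 p28 := (land_bt.1 (bt_one.mp (Nat.eq_of_beq_eq_true n11))).2
  obtain ⟨s, rfl, rfl⟩ := F2 h28 h
  have h1 : {w | adj (s • p22) w ∧ adj (s • p28) w} = (fun v => s • v) '' {w | adj p22 w ∧ adj p28 w} := by
    ext v
    constructor
    · intro h
      exact ⟨s⁻¹ • v, by rw [Set.mem_setOf_eq, ← adj_inv s, ← adj_inv s p28, smul_inv_smul]; exact h,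
        smul_inv_smul _ _⟩
    · rintro ⟨v, h, rfl⟩
      exact ⟨(adj_inv _ _ _).2 h.1, (adj_inv _ _ _).2 h.2⟩
  rw [h1, Set.ncard_image_of_injective _ (MulAction.injective s)]
  rw [← n4, ← ncard_mask]
  refine (lam_ncard fun i => (MT.get 22).testBit i = true ∧ (MT.get 28).testBit i = true).trans ?_
  congr 1
  ext i
  rw [Set.mem_setOf_eq, Set.mem_setOf_eq, land_bt, land_bt]

theorem card_C : {i : Fin 275 | CM.testBit i = true}.ncard = 162 := by rw [ncard_mask, n2]

theorem card_G0 : Nat.card G0 = 3265920 := by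
  letI : MulAction G (Fin 275) := MulAction.compHom _ ψ
  have h1 := MulAction.index_stabilizer G (0 : Fin 275)
  have h2 : MulAction.orbit G (0 : Fin 275) = Set.univ := by
    rw [Set.eq_univ_iff_forall]
    intro j
    obtain ⟨g, hg⟩ := tt0 0 j
    exact ⟨g, hg⟩
  rw [h2, Set.ncard_univ, Nat.card_fin] at h1
  have h3 : MulAction.stabilizer G (0 : Fin 275) = G0 := rfl
  rw [h3] at h1
  have h4 := G0.card_mul_index
  rw [h1, card_G] at h4
  omega

theorem orbit_top (u : Lam) : (orbit (⊤ : Subgroup G0) u) = Set.univ := by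
  rw [Set.eq_univ_iff_forall]
  intro v
  obtain ⟨s, hs⟩ := F1 u v
  exact ⟨⟨s, trivial⟩, hs⟩

instance finG : Finite G := H63.McL.fin

theorem card_st (u : Lam) : Nat.card (stabilizer G0 u) = 29160 := by
  have h := os (⊤ : Subgroup G0) u
  rw [orbit_top, Set.ncard_univ, card_Lam, top_inf_eq, Subgroup.card_top, card_G0] at h
  omega

theorem card_st30 {u v : Lam} (h : adj u v) :
    Nat.card (stabilizer G0 u ⊓ stabilizer G0 v : Subgroup G0) = 972 := by
  have h1 := os (stabilizer G0 u) v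
  have h2 : orbit (stabilizer G0 u) v = {w | adj u w} := by
    ext w
    constructor
    · rintro ⟨s, rfl⟩
      have h3 : (s : G0) • u = u := s.2
      have h4 := (adj_inv (s : G0) u v).2 h
      rw [h3] at h4
      exact h4
    · intro hw
      obtain ⟨s, h3, h4⟩ := F2 h hw
      exact ⟨⟨s, h3⟩, h4⟩
  rw [h2, deg, card_st] at h1
  omega

theorem card_st81 {u v : Lam} (h : ¬ adj u v) (hn : u ≠ v) :
    Nat.card (stabilizer G0 u ⊓ stabilizer G0 v : Subgroup G0) = 360 := by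
  have h1 := os (stabilizer G0 u) v
  have h2 : orbit (stabilizer G0 u) v = Set.univ \ ({w | adj u w} ∪ {u}) := by
    ext w
    constructor
    · rintro ⟨s, rfl⟩
      have h3 : (s : G0) • u = u := s.2
      refine ⟨trivial, ?_⟩
      rintro (h5 | h5)
      · have h4 := adj_inv (s : G0) u v
        rw [h3] at h4
        exact h (h4.1 h5)
      · have h5' : (s : G0) • v = u := h5
        exact hn (MulAction.injective (s : G0) (h3.trans h5'.symm))
    · rintro ⟨_, hw⟩
      rw [Set.mem_union, not_or] at hw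
      obtain ⟨s, h3, h4⟩ := F3 h hn hw.1 (fun h => hw.2 h.symm)
      exact ⟨⟨s, h3⟩, h4⟩
  have h3 : ({w | adj u w} ∪ {u}).ncard = 31 := by
    rw [Set.ncard_union_eq (by
      rw [Set.disjoint_singleton_right]
      exact adj_irr u) (Set.toFinite _) (Set.toFinite _), deg, Set.ncard_singleton]
  have h4 : (Set.univ \ ({w | adj u w} ∪ {u})).ncard = 81 := by
    have := Set.ncard_diff_add_ncard_of_subset (Set.subset_univ ({w | adj u w} ∪ {u})) (Set.toFinite _)
    rw [h3, Set.ncard_univ, card_Lam] at this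
    omega
  rw [h2, h4, card_st] at h1
  omega

theorem idx (K : Subgroup G0) (hK : K.index = 112) : ∃ u : Lam, K = stabilizer G0 u := by
  obtain ⟨u, hu⟩ := stab_of_index adj card_G0 card_Lam (fun x y h => card_st30 h) (fun x y h hn => card_st81 h hn)
    (fun s x y h => (adj_inv s x y).2 h) (fun x y h => (com h).le) K hK
  refine ⟨u, Subgroup.eq_of_le_of_card_ge hu ?_⟩
  have h1 := K.card_mul_index
  rw [hK, card_G0] at h1
  rw [card_st]
  omega

end H64.RK
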