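import Cfsg.Agent.Lib.H64.RK.Last
import Cfsg.Agent.S1582

set_option autoImplicit false
set_option linter.all false
set_option maxRecDepth 10000

/-! Recognition of the McLaughlin group. -/

namespace H64.RK

open Cfsg MulAction
open H63.McL (G ψ ψ_spec toCo toCo_mul toCo_one fix_u0 fixU u0 V V_mem V_inj norm_u0 norm_U)

universe u

/-- the three fixed vectors -/
noncomputable def S3 : Subgroup Co0 := stabilizer Co0 u0 ⊓ stabilizer Co0 Spor.leechU ⊓ stabilizer Co0 (V 0)

theorem fixV0 (s : G0) : toCo s.1 • V 0 = V 0 := by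
  rw [← ψ_spec]
  have h : ψ s.1 0 = 0 := s.2
  rw [h]

/-- the map to the stabiliser -/
noncomputable def toS (s : G0) : S3 := ⟨toCo s.1, ⟨⟨fix_u0 s.1, H63.McL.fixU s.1⟩, fixV0 s⟩⟩

theorem isoS : Nonempty (G0 ≃* S3) := by
  refine ⟨MulEquiv.ofBijective (MonoidHom.mk' toS fun s t => ?_) ⟨?_, ?_⟩⟩
  · exact Subtype.ext (toCo_mul s.1 t.1)
  · intro s t h
    have h1 : toCo s.1 = toCo t.1 := congrArg Subtype.val h
    have h2 : ((toCo s.1 : Co0) : Equiv.Perm leechLattice) = (toCo t.1 : Co0) := by rw [h1]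
    exact Subtype.ext (Subtype.ext h2)
  · rintro ⟨g, ⟨⟨h1, h2⟩, h3⟩⟩
    have h1 : g • u0 = u0 := h1
    have h2 : g • Spor.leechU = Spor.leechU := h2
    have h3 : g • V 0 = V 0 := h3
    have h4 : g • Spor.leechV = Spor.leechV := by
      have h5 : Spor.leechV = -u0 := by unfold u0; rw [neg_neg]
      rw [h5, H9.LeechGood.co0_neg, h1]
    have hm : (g : Equiv.Perm leechLattice) ∈ Spor.McL := ⟨⟨g.2, h4⟩, h2⟩
    have h5 : (⟨_, hm⟩ : G) ∈ G0 := by
      rw [mem_G0]
      apply V_inj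
      rw [ψ_spec]
      exact h3
    exact ⟨⟨⟨_, hm⟩, h5⟩, Subtype.ext (Subtype.ext rfl)⟩

theorem iso0 (K : Type) [Field K] [Fintype K] (hK : Fintype.card K = 9) : Nonempty (G0 ≃* Cfsg.PSU 4 K 3) := by
  obtain ⟨e1⟩ := isoS
  obtain ⟨e2⟩ := Cfsg.Agent.S1582.result u0 Spor.leechU (V 0) norm_u0 norm_U (V_mem 0) K hK
  exact ⟨e1.trans e2⟩

theorem main {Ω : Type u} [Fintype Ω] (hΩ : Fintype.card Ω = 275) (W : Subgroup (Equiv.Perm Ω))
    [MulAction.IsPretransitive W Ω] (a : Ω) (K : Type) [Field K] [Fintype K] (hK : Fintype.card K = 9)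
    (e : MulAction.stabilizer W a ≃* Cfsg.PSU 4 K 3) (b c : Ω)
    (hb : (MulAction.orbit (MulAction.stabilizer W a) b).ncard = 112)
    (hc : (MulAction.orbit (MulAction.stabilizer W a) c).ncard = 162) : Nonempty (W ≃* G) := by
  obtain ⟨e0⟩ := iso0 K hK
  let e' : G0 ≃* MulAction.stabilizer W a := e0.trans e.symm
  let θ : G0 →* Equiv.Perm Ω := W.subtype.comp ((MulAction.stabilizer W a).subtype.comp e'.toMonoidHom)
  have hθ : ∀ s, θ s = ((e' s : W) : Equiv.Perm Ω) := fun s => rfl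
  have ho : ∀ x, {y | ∃ s, θ s x = y} = MulAction.orbit (MulAction.stabilizer W a) x := by
    intro x
    ext y
    constructor
    · rintro ⟨s, rfl⟩
      exact ⟨e' s, rfl⟩
    · rintro ⟨w, rfl⟩
      refine ⟨e'.symm w, ?_⟩
      rw [hθ, MulEquiv.apply_symm_apply]
      rfl
  let X : Cfg Ω :=
    { hΩ := hΩ
      W := W
      tr := fun x y => by
        obtain ⟨w, hw⟩ := MulAction.exists_smul_eq W x y
        exact ⟨w, w.2, hw⟩
      a := a
      b := b
      c := c
      θ := θ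
      θW := fun s => (e' s : W).2
      θa := fun s => (e' s).2
      θs := fun w hw hwa => by
        refine ⟨e'.symm ⟨⟨w, hw⟩, hwa⟩, ?_⟩
        rw [hθ, MulEquiv.apply_symm_apply]
      hb := by rw [ho]; exact hb
      hc := by rw [ho]; exact hc }
  obtain ⟨f, h1, h2⟩ := X.exists_f
  let Y : Cf2 Ω := { toCfg := X, f := f, finj := h1, fθ := h2 }
  have hW : Nat.card W = 898128000 := by
    have h3 := MulAction.index_stabilizer W a
    rw [MulAction.orbit_eq_univ, Set.ncard_univ, Nat.card_eq_fintype_card, hΩ] at h3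
    have h4 := (MulAction.stabilizer W a).card_mul_index
    rw [h3, ← Nat.card_congr e'.toEquiv, card_G0] at h4
    omega
  exact Y.iso hW

end H64.RK
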