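import Cfsg.Agent.Lib.H64.RK.Data
import Cfsg.Agent.Lib.H63.McLBound
set_option autoImplicit false
set_option linter.all false
set_option maxRecDepth 100000
namespace H64.RK
open H63.PC H63.OT H63.MTb
open H63.McL (MT TO w1 w2)
open H35.Net (force force_eq)

/-- quantifier over the bits of a mask -/
noncomputable def forM (W : ℕ) (f : ℕ → Bool) : Bool :=
  allN (fun i => Bool.rec (motive := fun _ => Bool) true (f i) (Nat.beq (bt W i) 1)) 275

theorem forM_spec {W : ℕ} {f : ℕ → Bool} (h : forM W f = true) {i : ℕ} (hi : i < 275) (hW : W.testBit i = true) :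
    f i = true := by
  have h1 := allN_sound h i hi
  rw [bt_one.mpr hW] at h1
  exact h1

/-- the automorphisms -/
noncomputable def sgk (k : ℕ) : ℕ :=
  Nat.rec (motive := fun _ => ℕ) sg0 (fun k _ => Nat.rec (motive := fun _ => ℕ) sg1 (fun k _ =>
    Nat.rec (motive := fun _ => ℕ) sg2 (fun _ _ => sg3) k) k) k

/-- automorphisms of the graph on the 112 points -/
noncomputable def sgChk (k : ℕ) : Bool := forM LM fun i => band (Nat.beq (bt LM (a12 (sgk k) i)) 1)
  (force (MT.get (a12 (sgk k) i)) fun A => force (MT.get i) fun B =>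
    forM LM fun j => Nat.beq (bt A (a12 (sgk k) j)) (bt B j))

/-- inverses -/
noncomputable def sik (k : ℕ) : ℕ :=
  Nat.rec (motive := fun _ => ℕ) si0 (fun k _ => Nat.rec (motive := fun _ => ℕ) si1 (fun k _ =>
    Nat.rec (motive := fun _ => ℕ) si2 (fun _ _ => si3) k) k) k

/-- inverses -/
noncomputable def siChk (k : ℕ) : Bool := allN (fun i => band (Nat.beq (a12 (sik k) (a12 (sgk k) i)) i)
  (Nat.blt (a12 (sgk k) i) 275)) 275

theorem si_ok0 : siChk 0 = true := by decide +kernel
theorem si_ok1 : siChk 1 = true := by decide +kernel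
theorem si_ok2 : siChk 2 = true := by decide +kernel
theorem si_ok3 : siChk 3 = true := by decide +kernel

theorem sg_ok0 : sgChk 0 = true := by decide +kernel
theorem sg_ok1 : sgChk 1 = true := by decide +kernel
theorem sg_ok2 : sgChk 2 = true := by decide +kernel
theorem sg_ok3 : sgChk 3 = true := by decide +kernel

/-- the sets are images -/
noncomputable def hsChk (k : ℕ) : Bool := forM CM fun x => force (HST.get (Nat.add (Nat.mul 4 x) k)) fun A =>
  force (MT.get x) fun B => forM LM fun j => Nat.beq (bt A (a12 (sgk k) j)) (bt B j)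

theorem hs_ok0 : hsChk 0 = true := by decide +kernel
theorem hs_ok1 : hsChk 1 = true := by decide +kernel
theorem hs_ok2 : hsChk 2 = true := by decide +kernel
theorem hs_ok3 : hsChk 3 = true := by decide +kernel

/-- the words -/
noncomputable def gw (j : ℕ) : ℕ := Nat.rec (motive := fun _ => ℕ) gw0 (fun _ _ => gw1) j

/-- the action -/
noncomputable def kp (k j : ℕ) : ℕ :=
  Nat.rec (motive := fun _ => ℕ) (Nat.rec (motive := fun _ => ℕ) kp00 (fun _ _ => kp01) j)
  (fun k _ => Nat.rec (motive := fun _ => ℕ) (Nat.rec (motive := fun _ => ℕ) kp10 (fun _ _ => kp11) j) (fun k _ =>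
    Nat.rec (motive := fun _ => ℕ) (Nat.rec (motive := fun _ => ℕ) kp20 (fun _ _ => kp21) j)
      (fun _ _ => (Nat.rec (motive := fun _ => ℕ) kp30 (fun _ _ => kp31) j)) k) k) k

noncomputable def kpChk (k j : ℕ) : Bool := forM CM fun x => force (HST.get (Nat.add (Nat.mul 4 x) k)) fun A =>
  force (a12 (kp k j) x) fun y => band (Nat.beq (bt CM y) 1) (force (HST.get (Nat.add (Nat.mul 4 y) k)) fun B =>
   forM LM fun i => Nat.beq (bt B (a12 (gw j) i)) (bt A i))

theorem kp_ok00 : kpChk 0 0 = true := by decide +kernel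
theorem kp_ok01 : kpChk 0 1 = true := by decide +kernel
theorem kp_ok10 : kpChk 1 0 = true := by decide +kernel
theorem kp_ok11 : kpChk 1 1 = true := by decide +kernel
theorem kp_ok20 : kpChk 2 0 = true := by decide +kernel
theorem kp_ok21 : kpChk 2 1 = true := by decide +kernel
theorem kp_ok30 : kpChk 3 0 = true := by decide +kernel
theorem kp_ok31 : kpChk 3 1 = true := by decide +kernel

/-- first word -/
def wd0 : List H63.McL.Lo := [some .x, some .y, some .t, some .X]
/-- second word -/
def wd1 : List H63.McL.Lo := [some .t, some .X, some .T, some .x, some .y]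

theorem gw_ok0 : allN (fun i => Nat.beq (a12 gw0 i) (evw TO wd0 i)) 275 = true := by decide +kernel
theorem gw_ok1 : allN (fun i => Nat.beq (a12 gw1 i) (evw TO wd1 i)) 275 = true := by decide +kernel

/-- image of a mask -/
noncomputable def imT (T R : ℕ) : ℕ :=
  Nat.rec (motive := fun _ => ℕ) 0 (fun i ih => Bool.rec (motive := fun _ => ℕ) ih
    (Nat.lor ih (Nat.shiftLeft 1 (a12 T i))) (Nat.beq (bt R i) 1)) 275

/-- closure -/
noncomputable def clo (T T' n : ℕ) : ℕ → ℕ :=
  Nat.rec (motive := fun _ => ℕ → ℕ) (fun R => R) (fun _ ih R => force (Nat.lor R (imT T R)) fun R =>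
    force (Nat.lor R (imT T' R)) ih) n

theorem cl_ok0 : Nat.beq (clo (kp 0 0) (kp 0 1) 12 (Nat.shiftLeft 1 1)) CM = true := by decide +kernel
theorem cl_ok1 : Nat.beq (clo (kp 1 0) (kp 1 1) 12 (Nat.shiftLeft 1 1)) CM = true := by decide +kernel
theorem cl_ok2 : Nat.beq (clo (kp 2 0) (kp 2 1) 12 (Nat.shiftLeft 1 1)) CM = true := by decide +kernel
theorem cl_ok3 : Nat.beq (clo (kp 3 0) (kp 3 1) 12 (Nat.shiftLeft 1 1)) CM = true := by decide +kernel

/-- masks -/
theorem LM_eq : MT.get 0 = LM := Nat.eq_of_beq_eq_true (by decide +kernel)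
theorem CM_eq : Nat.xor (Nat.xor LM CM) 1 = 2 ^ 275 - 1 := Nat.eq_of_beq_eq_true (by decide +kernel)
theorem LC : Nat.land LM CM = 0 := Nat.eq_of_beq_eq_true (by decide +kernel)

theorem T1 : Nat.beq (Nat.land (reachW TO w1 275 8 (Nat.shiftLeft 1 22)) LM) LM = true := by decide +kernel
theorem T4 : Nat.beq (Nat.land (reachW TO w1 275 10 (Nat.shiftLeft 1 1)) CM) CM = true := by decide +kernel
theorem T2 : Nat.beq (Nat.land (reachW TO w2 275 6 (Nat.shiftLeft 1 28)) (Nat.land LM (MT.get 22)))
  (Nat.land LM (MT.get 22)) = true := by decide +kernel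
theorem T3 : Nat.beq (Nat.lor (Nat.lor (reachW TO w2 275 8 (Nat.shiftLeft 1 24)) (Nat.shiftLeft 1 22)) (MT.get 22))
  (Nat.lor (Nat.lor (Nat.lor (reachW TO w2 275 8 (Nat.shiftLeft 1 24)) (Nat.shiftLeft 1 22)) (MT.get 22)) LM) =
    true := by decide +kernel

/-! counts -/

theorem n1 : cntM LM 275 = 112 := by decide +kernel
theorem n2 : cntM CM 275 = 162 := by decide +kernel
theorem n3 : cntM (Nat.land LM (MT.get 22)) 275 = 30 := by decide +kernel
theorem n4 : cntM (Nat.land LM (Nat.land (MT.get 22) (MT.get 28))) 275 = 2 := by decide +kernel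
theorem n5 : cntM (Nat.land LM (MT.get 1)) 275 = 56 := by decide +kernel
theorem n6 : forM (Nat.land LM (MT.get 1)) (fun i => Nat.beq (cntM (Nat.land LM (Nat.land (MT.get 1) (MT.get i))) 275) 10) =
  true := by decide +kernel
theorem n7 : forM CM (fun i => Bool.rec (motive := fun _ => Bool)
  (Nat.beq (cntM (Nat.land LM (Nat.land (MT.get 1) (MT.get i))) 275)
    (Bool.rec (motive := fun _ => ℕ) 32 20 (Nat.beq (bt (MT.get 1) i) 1))) true (Nat.beq i 1)) = true := by decide +kernel
theorem n8 : cntM (Nat.land CM (MT.get 1)) 275 = 56 := by decide +kernel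
theorem n9 : Nat.beq (bt LM 22) 1 = true := by decide +kernel
theorem n10 : Nat.beq (bt CM 1) 1 = true := by decide +kernel
theorem n11 : Nat.beq (bt (Nat.land LM (MT.get 22)) 28) 1 = true := by decide +kernel
theorem n12 : Nat.beq (bt LM 24) 1 = true := by decide +kernel
theorem n13 : Nat.beq (bt (MT.get 22) 24) 0 = true := by decide +kernel
theorem si_ok {k : ℕ} (hk : k < 4) : siChk k = true := by
  interval_cases k
  exacts [si_ok0, si_ok1, si_ok2, si_ok3]
theorem sg_ok {k : ℕ} (hk : k < 4) : sgChk k = true := by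
  interval_cases k
  exacts [sg_ok0, sg_ok1, sg_ok2, sg_ok3]
theorem hs_ok {k : ℕ} (hk : k < 4) : hsChk k = true := by
  interval_cases k
  exacts [hs_ok0, hs_ok1, hs_ok2, hs_ok3]
theorem kp_ok {k j : ℕ} (hk : k < 4) (hj : j < 2) : kpChk k j = true := by
  interval_cases k <;> interval_cases j
  exacts [kp_ok00, kp_ok01, kp_ok10, kp_ok11, kp_ok20, kp_ok21, kp_ok30, kp_ok31]
theorem cl_ok {k : ℕ} (hk : k < 4) : Nat.beq (clo (kp k 0) (kp k 1) 12 (Nat.shiftLeft 1 1)) CM = true := by
  interval_cases k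
  exacts [cl_ok0, cl_ok1, cl_ok2, cl_ok3]
end H64.RK
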