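import Cfsg.Agent.Lib.H63.MTab
import Cfsg.Agent.Lib.H63.McLData

set_option autoImplicit false
set_option linter.all false

/-! Search trees for two-colourings of a graph without monochromatic triangles. -/

namespace H64.RK

open H63.PC H63.OT H63.MTb
open H35.Net (force force_eq)

/-- search trees -/
inductive HT where
  | cf (S n : ℕ) : HT
  | lf (S n k : ℕ) : HT
  | br (S n p : ℕ) (t1 t0 : HT) : HT

variable (M : ℕ → ℕ) (LM CM : ℕ) (HS : ℕ → ℕ)

/-- one propagation step -/
noncomputable def stp (s I O : ℕ) (K : ℕ → ℕ → Bool) : Bool :=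
  force (Nat.land s 511) fun a => force (Nat.land (Nat.shiftRight s 9) 511) fun b => force (M a) fun Ma =>
    Bool.rec (motive := fun _ => Bool) (K I O)
      (force (Nat.land Ma (Nat.land (M b) LM)) fun Q =>
        Bool.rec (motive := fun _ => Bool)
          (Bool.rec (motive := fun _ => Bool) (K I O) (force (Nat.lor I Q) fun I' => K I' O)
            (Nat.beq (Nat.land (bt O a) (bt O b)) 1))
          (Bool.rec (motive := fun _ => Bool) (K I O) (force (Nat.lor O Q) fun O' => K I O')
            (Nat.beq (Nat.land (bt I a) (bt I b)) 1))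
          (Nat.beq (Nat.shiftRight s 18) 0))
      (Nat.beq (bt Ma b) 1)

/-- a sequence of steps -/
noncomputable def run (n : ℕ) : ℕ → ℕ → ℕ → (ℕ → ℕ → Bool) → Bool :=
  Nat.rec (motive := fun _ => ℕ → ℕ → ℕ → (ℕ → ℕ → Bool) → Bool) (fun _ I O K => K I O)
    (fun _ ih S I O K => force (Nat.land S 1048575) fun s => stp M LM s I O fun I' O' =>
      force (Nat.shiftRight S 20) fun S' => ih S' I' O' K) n

/-- check of a search tree -/
noncomputable def HT.chk (t : HT) : ℕ → ℕ → Bool :=
  HT.rec (motive := fun _ => ℕ → ℕ → Bool)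
    (fun S n I O => run M LM n S I O fun I O => Bool.not (Nat.beq (Nat.land I O) 0))
    (fun S n k I O => run M LM n S I O fun I O => band (Nat.beq (Nat.lor I O) LM)
      (band (Nat.blt (Nat.land k 3) 4) (band (Nat.beq I (HS k)) (Nat.beq (bt CM (Nat.shiftRight k 2)) 1))))
    (fun S n p _ _ ih1 ih0 I O => run M LM n S I O fun I O => band (Nat.beq (bt LM p) 1)
      (band (force (Nat.lor I (Nat.shiftLeft 1 p)) fun I' => ih1 I' O)
        (force (Nat.lor O (Nat.shiftLeft 1 p)) fun O' => ih0 I O'))) t

variable {M} {LM CM} {HS}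

/-- a set without monochromatic triangles -/
structure Good (M : ℕ → ℕ) (LM m : ℕ) : Prop where
  sub : ∀ i, m.testBit i = true → LM.testBit i = true
  no1 : ∀ a b c, LM.testBit a = true → LM.testBit b = true → LM.testBit c = true → (M a).testBit b = true →
    (M a).testBit c = true → (M b).testBit c = true → m.testBit a = true → m.testBit b = true → m.testBit c = false
  no0 : ∀ a b c, LM.testBit a = true → LM.testBit b = true → LM.testBit c = true → (M a).testBit b = true →
    (M a).testBit c = true → (M b).testBit c = true → m.testBit a = false → m.testBit b = false → m.testBit c = true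

/-- the invariant -/
structure Inv (LM m I O : ℕ) : Prop where
  i1 : ∀ i, I.testBit i = true → m.testBit i = true
  o1 : ∀ i, O.testBit i = true → LM.testBit i = true
  o2 : ∀ i, O.testBit i = true → m.testBit i = false

theorem and_bt {x y a b : ℕ} (h : Nat.beq (Nat.land (bt x a) (bt y b)) 1 = true) :
    x.testBit a = true ∧ y.testBit b = true := by
  have h1 := Nat.eq_of_beq_eq_true h
  rw [bt_eq, bt_eq] at h1
  cases hx : x.testBit a <;> cases hy : y.testBit b <;> rw [hx, hy] at h1 <;> simp_all

theorem stp_sound {m s I O : ℕ} {K : ℕ → ℕ → Bool} (hG : Good M LM m) (hI : Inv LM m I O)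
    (h : stp M LM s I O K = true) : ∃ I' O', Inv LM m I' O' ∧ K I' O' = true := by
  simp only [stp, force_eq] at h
  set a := Nat.land s 511
  set b := Nat.land (Nat.shiftRight s 9) 511
  cases hb : Nat.beq (bt (M a) b) 1 with
  | false => rw [hb] at h; exact ⟨I, O, hI, h⟩
  | true =>
    rw [hb] at h
    have hab : (M a).testBit b = true := bt_one.mp (Nat.eq_of_beq_eq_true hb)
    have tb : ∀ c, (Nat.land (M a) (Nat.land (M b) LM)).testBit c = true →
        (M a).testBit c = true ∧ (M b).testBit c = true ∧ LM.testBit c = true := by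
      intro c hc
      have e : ∀ a b : ℕ, Nat.land a b = a &&& b := fun _ _ => rfl
      rw [e, e, Nat.testBit_and, Nat.testBit_and, Bool.and_eq_true, Bool.and_eq_true] at hc
      exact hc
    have tor : ∀ x y c : ℕ, (Nat.lor x y).testBit c = true → x.testBit c = true ∨ y.testBit c = true := by
      intro x y c hc
      have e : ∀ a b : ℕ, Nat.lor a b = a ||| b := fun _ _ => rfl
      rwa [e, Nat.testBit_or, Bool.or_eq_true] at hc
    cases ht : Nat.beq (Nat.shiftRight s 18) 0 with
    | true =>
      rw [ht] at h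
      cases hc : Nat.beq (Nat.land (bt I a) (bt I b)) 1 with
      | false => rw [hc] at h; exact ⟨I, O, hI, h⟩
      | true =>
        rw [hc] at h
        obtain ⟨ha, hb'⟩ := and_bt hc
        refine ⟨I, _, ⟨hI.i1, ?_, ?_⟩, h⟩
        · intro i hi
          rcases tor _ _ _ hi with h1 | h1
          · exact hI.o1 i h1
          · exact (tb i h1).2.2
        · intro i hi
          rcases tor _ _ _ hi with h1 | h1
          · exact hI.o2 i h1
          · obtain ⟨q1, q2, q3⟩ := tb i h1
            exact hG.no1 a b i (hG.sub a (hI.i1 a ha)) (hG.sub b (hI.i1 b hb')) q3 hab q1 q2 (hI.i1 a ha)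
              (hI.i1 b hb')
    | false =>
      rw [ht] at h
      cases hc : Nat.beq (Nat.land (bt O a) (bt O b)) 1 with
      | false => rw [hc] at h; exact ⟨I, O, hI, h⟩
      | true =>
        rw [hc] at h
        obtain ⟨ha, hb'⟩ := and_bt hc
        refine ⟨_, O, ⟨?_, hI.o1, hI.o2⟩, h⟩
        intro i hi
        rcases tor _ _ _ hi with h1 | h1
        · exact hI.i1 i h1
        · obtain ⟨q1, q2, q3⟩ := tb i h1
          exact hG.no0 a b i (hI.o1 a ha) (hI.o1 b hb') q3 hab q1 q2 (hI.o2 a ha) (hI.o2 b hb')

theorem run_sound {m : ℕ} (hG : Good M LM m) {n : ℕ} : ∀ {S I O : ℕ} {K : ℕ → ℕ → Bool}, Inv LM m I O →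
    run M LM n S I O K = true → ∃ I' O', Inv LM m I' O' ∧ K I' O' = true := by
  induction n with
  | zero => intro S I O K hI h; exact ⟨I, O, hI, h⟩
  | succ n ih =>
    intro S I O K hI h
    have h' : (force (Nat.land S 1048575) fun s => stp M LM s I O fun I' O' =>
      force (Nat.shiftRight S 20) fun S' => run M LM n S' I' O' K) = true := h
    rw [force_eq] at h'
    obtain ⟨I', O', h1, h2⟩ := stp_sound hG hI h'
    rw [force_eq] at h2
    exact ih h1 h2

theorem chk_sound {m : ℕ} (hG : Good M LM m) {t : HT} : ∀ {I O : ℕ}, Inv LM m I O → t.chk M LM CM HS I O = true →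
    ∃ k, m = HS k ∧ CM.testBit (k / 4) = true := by
  induction t with
  | cf S n =>
    intro I O hI h
    obtain ⟨I', O', h1, h2⟩ := run_sound hG hI h
    exfalso
    have h3 : Nat.land I' O' ≠ 0 := by
      intro h0
      have h2' : Bool.not (Nat.beq (Nat.land I' O') 0) = true := h2
      rw [h0] at h2'
      exact absurd h2' (by decide)
    obtain ⟨i, hi⟩ := Nat.exists_testBit_of_ne_zero h3
    have e : ∀ a b : ℕ, Nat.land a b = a &&& b := fun _ _ => rfl
    rw [e, Nat.testBit_and, Bool.and_eq_true] at hi
    have h4 := h1.i1 i hi.1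
    rw [h1.o2 i hi.2] at h4
    exact absurd h4 (by decide)
  | lf S n k =>
    intro I O hI h
    obtain ⟨I', O', h1, h2⟩ := run_sound hG hI h
    rw [band_iff, band_iff, band_iff] at h2
    obtain ⟨h3, h4, h5, h6⟩ := h2
    have h3 := Nat.eq_of_beq_eq_true h3
    have h5 := Nat.eq_of_beq_eq_true h5
    have h6 := Nat.eq_of_beq_eq_true h6
    refine ⟨k, ?_, ?_⟩
    · rw [← h5]
      apply Nat.eq_of_testBit_eq
      intro i
      cases hm : m.testBit i with
      | true =>
        have h7 := hG.sub i hm
        rw [← h3] at h7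
        have e : ∀ a b : ℕ, Nat.lor a b = a ||| b := fun _ _ => rfl
        rw [e, Nat.testBit_or, Bool.or_eq_true] at h7
        rcases h7 with h7 | h7
        · exact h7.symm
        · rw [h1.o2 i h7] at hm; exact absurd hm (by decide)
      | false =>
        cases hi : I'.testBit i with
        | false => rfl
        | true => rw [h1.i1 i hi] at hm; exact absurd hm (by decide)
    · have e : k / 4 = Nat.shiftRight k 2 := (Nat.shiftRight_eq_div_pow k 2).symm
      rw [e]
      exact bt_one.mp h6
  | br S n p t1 t0 ih1 ih0 =>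
    intro I O hI h
    obtain ⟨I', O', h1, h2⟩ := run_sound hG hI h
    rw [band_iff, band_iff, force_eq, force_eq] at h2
    obtain ⟨h3, h4, h5⟩ := h2
    have h3 : LM.testBit p = true := bt_one.mp (Nat.eq_of_beq_eq_true h3)
    have tor : ∀ x c : ℕ, (Nat.lor x (Nat.shiftLeft 1 p)).testBit c = true → x.testBit c = true ∨ c = p := by
      intro x c hc
      have e : ∀ a b : ℕ, Nat.lor a b = a ||| b := fun _ _ => rfl
      rwa [e, Nat.testBit_or, Bool.or_eq_true, one_shift_testBit, decide_eq_true_eq] at hc
    cases hm : m.testBit p with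
    | true =>
      refine ih1 ⟨?_, h1.o1, h1.o2⟩ h4
      intro i hi
      rcases tor _ _ hi with h6 | h6
      · exact h1.i1 i h6
      · rw [h6]; exact hm
    | false =>
      refine ih0 ⟨h1.i1, ?_, ?_⟩ h5
      · intro i hi
        rcases tor _ _ hi with h6 | h6
        · exact h1.o1 i h6
        · rw [h6]; exact h3
      · intro i hi
        rcases tor _ _ hi with h6 | h6
        · exact h1.o2 i h6
        · rw [h6]; exact hm

theorem enum {m : ℕ} (hG : Good M LM m) {t : HT} (h : t.chk M LM CM HS 0 0 = true) :
    ∃ k, m = HS k ∧ CM.testBit (k / 4) = true :=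
  chk_sound hG ⟨fun i hi => by simp at hi, fun i hi => by simp at hi, fun i hi => by simp at hi⟩ h

end H64.RK
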