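import Cfsg.Agent.Lib.H64.RK.Act

set_option autoImplicit false
set_option linter.all false
set_option maxRecDepth 10000

/-! Rank three groups with the subdegrees of the McLaughlin group. -/

namespace H64.RK

open H63.PC H63.OT H63.MTb MulAction
open H63.McL (G ψ MT)

universe u

/-- indicator -/
noncomputable def io (P : Prop) : ℕ := @ite ℕ P (Classical.propDecidable P) 1 0

theorem io_t {P : Prop} (h : P) : io P = 1 := if_pos h
theorem io_f {P : Prop} (h : ¬ P) : io P = 0 := if_neg h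
theorem io_c {P Q : Prop} (h : P ↔ Q) : io P = io Q := by rw [propext h]
theorem io_le (P : Prop) : io P ≤ 1 := by
  by_cases h : P
  · rw [io_t h]
  · rw [io_f h]; omega
theorem io_cases (P : Prop) : (P ∧ io P = 1) ∨ (¬ P ∧ io P = 0) := by
  by_cases h : P
  · exact Or.inl ⟨h, io_t h⟩
  · exact Or.inr ⟨h, io_f h⟩
theorem io_one {P : Prop} (h : io P = 1) : P := by
  by_contra hc; rw [io_f hc] at h; omega
theorem io_and (P Q : Prop) : io (P ∧ Q) = io P * io Q := by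
  rcases io_cases P with ⟨h1, h2⟩ | ⟨h1, h2⟩ <;> rcases io_cases Q with ⟨h3, h4⟩ | ⟨h3, h4⟩ <;> rw [h2, h4]
  · exact io_t ⟨h1, h3⟩
  · exact io_f (fun h => h3 h.2)
  · exact io_f (fun h => h1 h.1)
  · exact io_f (fun h => h1 h.1)

theorem sum_io {α : Type*} [Fintype α] (P : α → Prop) : ∑ x, io (P x) = {x | P x}.ncard := by
  classical
  have h : {x | P x}.ncard = (Finset.univ.filter P).card := by
    rw [← Set.ncard_coe_finset]; congr 1; ext x; simp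
  rw [h, Finset.card_filter]
  apply Finset.sum_congr rfl
  intro x _
  by_cases hx : P x
  · rw [io_t hx, if_pos hx]
  · rw [io_f hx, if_neg hx]

theorem pinv {α : Type*} (w : Equiv.Perm α) (x : α) : w⁻¹ (w x) = x := by
  rw [Equiv.Perm.inv_eq_iff_eq]

theorem pinv' {α : Type*} (w : Equiv.Perm α) (x : α) : w (w⁻¹ x) = x :=
  (Equiv.Perm.inv_eq_iff_eq.mp rfl).symm

/-- the data -/
structure Cfg (Ω : Type u) [Fintype Ω] where
  hΩ : Fintype.card Ω = 275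
  W : Subgroup (Equiv.Perm Ω)
  tr : ∀ x y : Ω, ∃ w ∈ W, w x = y
  a : Ω
  b : Ω
  c : Ω
  θ : G0 →* Equiv.Perm Ω
  θW : ∀ s, θ s ∈ W
  θa : ∀ s, θ s a = a
  θs : ∀ w ∈ W, w a = a → ∃ s, θ s = w
  hb : {y | ∃ s, θ s b = y}.ncard = 112
  hc : {y | ∃ s, θ s c = y}.ncard = 162

variable {Ω : Type u} [Fintype Ω]

theorem Cfg.exists_f (X : Cfg Ω) : ∃ f : Lam → Ω, Function.Injective f ∧ (∀ s u, f (s • u) = X.θ s (f u)) := by
  letI : MulAction G0 Ω := MulAction.compHom Ω X.θ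
  have h1 := MulAction.index_stabilizer G0 X.b
  have h2 : MulAction.orbit G0 X.b = {y | ∃ s, X.θ s X.b = y} := rfl
  rw [h2, X.hb] at h1
  obtain ⟨x0, hx0⟩ := idx _ h1
  choose t ht using F1 x0
  have hm : ∀ s : G0, s ∈ stabilizer G0 X.b ↔ X.θ s X.b = X.b := fun s => Iff.rfl
  have wd : ∀ s : G0, X.θ (t (s • x0)) X.b = X.θ s X.b := by
    intro s
    have h3 : (t (s • x0))⁻¹ * s ∈ stabilizer G0 X.b := by
      rw [hx0]
      show ((t (s • x0))⁻¹ * s) • x0 = x0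
      rw [mul_smul, inv_smul_eq_iff]
      exact (ht _).symm
    have h4 := (hm _).1 h3
    rw [map_mul, map_inv, Equiv.Perm.mul_apply, Equiv.Perm.inv_eq_iff_eq] at h4
    exact h4.symm
  refine ⟨fun u => X.θ (t u) X.b, ?_, ?_⟩
  · intro u v h
    have h' : X.θ (t u) X.b = X.θ (t v) X.b := h
    have h3 : (t v)⁻¹ * t u ∈ stabilizer G0 X.b := by
      rw [hm, map_mul, map_inv, Equiv.Perm.mul_apply, Equiv.Perm.inv_eq_iff_eq]
      exact h'
    rw [hx0] at h3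
    have h4 : ((t v)⁻¹ * t u) • x0 = x0 := h3
    rw [mul_smul, ht, inv_smul_eq_iff, ht] at h4
    exact h4
  · intro s u
    have h3 := wd (s * t u)
    rw [mul_smul, ht, map_mul, Equiv.Perm.mul_apply] at h3
    exact h3

/-- the data with an embedding -/
structure Cf2 (Ω : Type u) [Fintype Ω] extends Cfg Ω where
  f : Lam → Ω
  finj : Function.Injective f
  fθ : ∀ s u, f (s • u) = θ s (f u)

namespace Cf2

variable (Y : Cf2 Ω)

/-- the relation -/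
def R (x y : Ω) : Prop := ∃ w ∈ Y.W, w Y.a = x ∧ ∃ u, w (Y.f u) = y

theorem R_to {w : Equiv.Perm Ω} (hw : w ∈ Y.W) {x y : Ω} (h : Y.R x y) : Y.R (w x) (w y) := by
  obtain ⟨v, hv, h1, u, h2⟩ := h
  exact ⟨w * v, Y.W.mul_mem hw hv, by rw [Equiv.Perm.mul_apply, h1], u, by rw [Equiv.Perm.mul_apply, h2]⟩

theorem R_inv {w : Equiv.Perm Ω} (hw : w ∈ Y.W) {x y : Ω} : Y.R (w x) (w y) ↔ Y.R x y := by
  refine ⟨fun h => ?_, Y.R_to hw⟩
  have := Y.R_to (Y.W.inv_mem hw) h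
  rwa [pinv, pinv] at this

theorem R_a {y : Ω} : Y.R Y.a y ↔ ∃ u, Y.f u = y := by
  constructor
  · rintro ⟨w, hw, h1, u, h2⟩
    obtain ⟨s, rfl⟩ := Y.θs w hw h1
    exact ⟨s • u, by rw [Y.fθ, h2]⟩
  · rintro ⟨u, rfl⟩
    exact ⟨1, Y.W.one_mem, rfl, u, rfl⟩

/-- the third orbit -/
def Ga : Set Ω := {y | ∃ s, Y.θ s Y.c = y}

theorem a_ne (u : Lam) : Y.f u ≠ Y.a := by
  intro h
  have key : ∀ v, Y.f v = Y.a := by
    intro v
    obtain ⟨s, rfl⟩ := F1 u v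
    rw [Y.fθ, h, Y.θa]
  have h1 := Y.finj ((key p22).trans (key p28).symm)
  have h2 := congrArg (fun x : Lam => ((x : Fin 275) : ℕ)) h1
  exact absurd h2 (by decide)

theorem range_card : {y | ∃ u, Y.f u = y}.ncard = 112 := by
  have h1 : {y | ∃ u, Y.f u = y} = Y.f '' Set.univ := by ext y; simp
  rw [h1, Set.ncard_image_of_injective _ Y.finj, Set.ncard_univ, card_Lam]

theorem f_notG (u : Lam) : Y.f u ∉ Y.Ga := by
  rintro ⟨s, hs⟩
  have h1 : Y.c = Y.f (s⁻¹ • u) := by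
    rw [Y.fθ, ← hs, map_inv, pinv]
  have h2 : Y.Ga = {y | ∃ u, Y.f u = y} := by
    ext y
    constructor
    · rintro ⟨t, rfl⟩
      exact ⟨t • (s⁻¹ • u), by rw [Y.fθ, ← h1]⟩
    · rintro ⟨v, rfl⟩
      obtain ⟨t, ht⟩ := F1 (s⁻¹ • u) v
      exact ⟨t, by rw [h1, ← Y.fθ, ht]⟩
  have h3 := Y.hc
  have h4 : Y.Ga = {y | ∃ s, Y.θ s Y.c = y} := rfl
  rw [← h4, h2, Y.range_card] at h3
  omega

theorem a_notG : Y.a ∉ Y.Ga := by
  rintro ⟨s, hs⟩
  have h1 : Y.c = Y.a := by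
    have := congrArg (Y.θ s⁻¹) hs
    rw [map_inv, pinv, ← map_inv, Y.θa] at this
    exact this
  have h2 : {y | ∃ s, Y.θ s Y.c = y} = {Y.a} := by
    ext y
    constructor
    · rintro ⟨t, rfl⟩
      rw [h1, Y.θa]; rfl
    · intro hy
      have hy' : y = Y.a := hy
      exact ⟨1, by rw [map_one, hy', h1]; rfl⟩
  have h3 := Y.hc
  rw [h2, Set.ncard_singleton] at h3
  omega

theorem univ_eq : (Set.univ : Set Ω) = {Y.a} ∪ ({y | ∃ u, Y.f u = y} ∪ Y.Ga) := by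
  have e1 : ({y | ∃ u, Y.f u = y} ∪ Y.Ga).ncard = 274 := by
    rw [Set.ncard_union_eq (by
      rw [Set.disjoint_left]
      rintro y ⟨u, rfl⟩ h
      exact Y.f_notG u h) (Set.toFinite _) (Set.toFinite _), Y.range_card]
    have : Y.Ga.ncard = 162 := Y.hc
    omega
  have e2 : ({Y.a} ∪ ({y | ∃ u, Y.f u = y} ∪ Y.Ga)).ncard = 275 := by
    rw [Set.ncard_union_eq (by
      rw [Set.disjoint_left]
      intro y hy h
      have hy' : y = Y.a := hy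
      rcases h with ⟨u, h⟩ | h
      · exact Y.a_ne u (h.trans hy')
      · exact Y.a_notG (hy' ▸ h)) (Set.toFinite _) (Set.toFinite _), e1, Set.ncard_singleton]
  symm
  apply Set.eq_of_subset_of_ncard_le (Set.subset_univ _) _ (Set.toFinite _)
  rw [Set.ncard_univ, Nat.card_eq_fintype_card, Y.hΩ, e2]

theorem cases3 (y : Ω) : y = Y.a ∨ (∃ u, Y.f u = y) ∨ y ∈ Y.Ga := by
  have h : y ∈ (Set.univ : Set Ω) := trivial
  rw [Y.univ_eq] at h
  exact h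

/-- the third orbit as a finset -/
noncomputable def Gf : Finset Ω := (Set.toFinite Y.Ga).toFinset

theorem mem_Gf {y : Ω} : y ∈ Y.Gf ↔ y ∈ Y.Ga := Set.Finite.mem_toFinset _

theorem card_Gf : Y.Gf.card = 162 := by
  unfold Gf
  rw [← Set.ncard_eq_toFinset_card]
  exact Y.hc

theorem split (F : Ω → ℕ) : ∑ y, F y = F Y.a + ∑ u, F (Y.f u) + ∑ y ∈ Y.Gf, F y := by
  classical
  have h1 : (Finset.univ : Finset Ω) = {Y.a} ∪ (Finset.univ.image Y.f ∪ Y.Gf) := by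
    ext y
    rw [Finset.mem_union, Finset.mem_union, Finset.mem_singleton, Finset.mem_image, mem_Gf]
    simp only [Finset.mem_univ, true_and, true_iff]
    exact Y.cases3 y
  rw [h1, Finset.sum_union, Finset.sum_union, Finset.sum_singleton, Finset.sum_image (fun x _ y _ h => Y.finj h),
    add_assoc]
  · rw [Finset.disjoint_left]
    intro y hy hy'
    obtain ⟨u, _, rfl⟩ := Finset.mem_image.1 hy
    exact Y.f_notG u (Y.mem_Gf.1 hy')
  · rw [Finset.disjoint_left]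
    intro y hy hy'
    rw [Finset.mem_singleton] at hy
    rcases Finset.mem_union.1 hy' with h | h
    · obtain ⟨u, _, h⟩ := Finset.mem_image.1 h
      exact Y.a_ne u (h.trans hy)
    · rw [hy] at h
      exact Y.a_notG (Y.mem_Gf.1 h)

theorem Raa : ¬ Y.R Y.a Y.a := by
  rw [R_a]
  rintro ⟨u, h⟩
  exact Y.a_ne u h

theorem Rirr (x : Ω) : ¬ Y.R x x := by
  obtain ⟨w, hw, rfl⟩ := Y.tr Y.a x
  rw [Y.R_inv hw]
  exact Y.Raa

theorem R_ag {y : Ω} (hy : y ∈ Y.Ga) : ¬ Y.R Y.a y := by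
  rw [R_a]
  rintro ⟨u, rfl⟩
  exact Y.f_notG u hy

theorem row (x : Ω) : ∑ y, io (Y.R x y) = 112 := by
  obtain ⟨w, hw, rfl⟩ := Y.tr Y.a x
  rw [← Equiv.sum_comp w]
  have : ∀ y, io (Y.R (w Y.a) (w y)) = io (Y.R Y.a y) := fun y => io_c (Y.R_inv hw)
  rw [Finset.sum_congr rfl (fun y _ => this y), sum_io]
  rw [← Y.range_card]
  congr 1
  ext y
  exact Y.R_a

theorem colsum (x : Ω) : ∑ y, io (Y.R y x) = ∑ y, io (Y.R y Y.a) := by
  obtain ⟨w, hw, rfl⟩ := Y.tr Y.a x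
  rw [← Equiv.sum_comp w]
  exact Finset.sum_congr rfl (fun y _ => io_c (Y.R_inv hw))

theorem colsum_a : ∑ y, io (Y.R y Y.a) = 112 := by
  have h1 : ∑ x, ∑ y, io (Y.R x y) = ∑ y, ∑ x, io (Y.R x y) := Finset.sum_comm
  rw [Finset.sum_congr rfl (fun x _ => Y.row x), Finset.sum_congr rfl (fun y _ => Y.colsum y), Finset.sum_const,
    Finset.sum_const, Finset.card_univ, Y.hΩ, smul_eq_mul, smul_eq_mul] at h1
  omega

theorem θR (s : G0) {x y : Ω} : Y.R (Y.θ s x) (Y.θ s y) ↔ Y.R x y := Y.R_inv (Y.θW s)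

theorem exists_back : ∃ u, Y.R (Y.f u) Y.a := by
  by_contra hc
  rw [not_exists] at hc
  have h1 := Y.colsum_a
  rw [Y.split, io_f Y.Raa, Finset.sum_congr rfl (fun u _ => io_f (hc u)), Finset.sum_const_zero, zero_add, zero_add] at h1
  have h2 : ∀ y ∈ Y.Gf, io (Y.R y Y.a) = io (Y.R Y.c Y.a) := by
    intro y hy
    obtain ⟨s, rfl⟩ := Y.mem_Gf.1 hy
    apply io_c
    have := Y.θR s (x := Y.c) (y := Y.a)
    rwa [Y.θa] at this
  rw [Finset.sum_congr rfl h2, Finset.sum_const, Y.card_Gf, smul_eq_mul] at h1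
  have := io_le (Y.R Y.c Y.a)
  omega

theorem R_fa (u : Lam) : Y.R (Y.f u) Y.a := by
  obtain ⟨v, hv⟩ := Y.exists_back
  obtain ⟨s, rfl⟩ := F1 v u
  have := (Y.θR s).2 hv
  rwa [Y.θa, ← Y.fθ] at this

theorem Rsymm {x y : Ω} (h : Y.R x y) : Y.R y x := by
  obtain ⟨w, hw, rfl, u, rfl⟩ := h
  exact Y.R_to hw (Y.R_fa u)

theorem Rcomm {x y : Ω} : Y.R x y ↔ Y.R y x := ⟨Y.Rsymm, Y.Rsymm⟩

theorem adj22 : adj p22 p28 := (land_bt.1 (bt_one.mp (Nat.eq_of_beq_eq_true n11))).2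

theorem nadj24 : ¬ adj p22 p24 := by
  intro h
  have h1 := Nat.eq_of_beq_eq_true n13
  have h2 : bt (MT.get 22) 24 = 1 := bt_one.mpr h
  rw [h1] at h2
  omega

theorem ne24 : p22 ≠ p24 := by
  intro h1
  have h2 := congrArg (fun x : Lam => ((x : Fin 275) : ℕ)) h1
  exact absurd h2 (by decide)

theorem Rf_adj {u v : Lam} (h : adj u v) : Y.R (Y.f u) (Y.f v) ↔ Y.R (Y.f p22) (Y.f p28) := by
  obtain ⟨s, rfl, rfl⟩ := F2 adj22 h
  rw [Y.fθ, Y.fθ]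
  exact Y.θR s

theorem Rf_nadj {u v : Lam} (h : ¬ adj u v) (hn : u ≠ v) :
    Y.R (Y.f u) (Y.f v) ↔ Y.R (Y.f p22) (Y.f p24) := by
  obtain ⟨s, rfl, rfl⟩ := F3 nadj24 ne24 h hn
  rw [Y.fθ, Y.fθ]
  exact Y.θR s

theorem sum_adj (u : Lam) : ∑ v, io (adj u v) = 30 := by rw [sum_io, deg]

theorem sum_all (u : Lam) : ∑ v, io (Y.R (Y.f u) (Y.f v)) =
    30 * io (Y.R (Y.f p22) (Y.f p28)) + 81 * io (Y.R (Y.f p22) (Y.f p24)) := by
  classical
  have h1 : ∀ v, io (Y.R (Y.f u) (Y.f v)) + io (adj u v) * io (Y.R (Y.f p22) (Y.f p24)) +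
      io (u = v) * io (Y.R (Y.f p22) (Y.f p24)) =
      io (adj u v) * io (Y.R (Y.f p22) (Y.f p28)) + io (Y.R (Y.f p22) (Y.f p24)) := by
    intro v
    by_cases hv : u = v
    · subst hv
      rw [io_f (Y.Rirr _), io_f (adj_irr u), io_t rfl]
      omega
    · rw [io_f hv]
      by_cases ha : adj u v
      · rw [io_t ha, io_c (Y.Rf_adj ha)]; omega
      · rw [io_f ha, io_c (Y.Rf_nadj ha hv)]; omega
  have h2 := Finset.sum_congr (rfl : (Finset.univ : Finset Lam) = Finset.univ) (fun v _ => h1 v)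
  rw [Finset.sum_add_distrib, Finset.sum_add_distrib, Finset.sum_add_distrib, ← Finset.sum_mul, ← Finset.sum_mul,
    ← Finset.sum_mul, sum_adj, sum_io (fun v => u = v), Finset.sum_const, Finset.card_univ] at h2
  have h3 : {v | u = v}.ncard = 1 := by
    have : {v | u = v} = {u} := by ext v; exact eq_comm
    rw [this, Set.ncard_singleton]
  have h4 : Fintype.card Lam = 112 := by rw [← Nat.card_eq_fintype_card, card_Lam]
  rw [h3, h4, smul_eq_mul] at h2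
  omega

theorem row_f (u : Lam) : 1 + ∑ v, io (Y.R (Y.f u) (Y.f v)) + ∑ y ∈ Y.Gf, io (Y.R (Y.f u) y) = 112 := by
  have h := Y.row (Y.f u)
  rw [Y.split, io_t (Y.R_fa u)] at h
  exact h

theorem col_G {y : Ω} (hy : y ∈ Y.Gf) : ∑ u, io (Y.R (Y.f u) y) = ∑ u, io (Y.R (Y.f u) Y.c) := by
  obtain ⟨s, rfl⟩ := Y.mem_Gf.1 hy
  rw [← Equiv.sum_comp (MulAction.toPerm s)]
  apply Finset.sum_congr rfl
  intro u _
  apply io_c
  have : (MulAction.toPerm s : Equiv.Perm Lam) u = s • u := rfl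
  rw [this, Y.fθ]
  exact Y.θR s

theorem dc (d : ℕ) (hd : ∀ u, ∑ v, io (Y.R (Y.f u) (Y.f v)) = d) :
    112 * (111 - d) = 162 * ∑ u, io (Y.R (Y.f u) Y.c) := by
  have h1 : ∑ u, ∑ y ∈ Y.Gf, io (Y.R (Y.f u) y) = ∑ y ∈ Y.Gf, ∑ u, io (Y.R (Y.f u) y) := Finset.sum_comm
  rw [Finset.sum_congr rfl (fun y hy => Y.col_G hy), Finset.sum_const, Y.card_Gf, smul_eq_mul] at h1
  have h2 : ∀ u, ∑ y ∈ Y.Gf, io (Y.R (Y.f u) y) = 111 - d := by
    intro u
    have h3 := Y.row_f u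
    rw [hd u] at h3
    omega
  rw [Finset.sum_congr rfl (fun u _ => h2 u), Finset.sum_const, Finset.card_univ, smul_eq_mul] at h1
  have h4 : Fintype.card Lam = 112 := by rw [← Nat.card_eq_fintype_card, card_Lam]
  rw [h4] at h1
  exact h1

/-- the complete case is impossible -/
theorem not_both (h1 : Y.R (Y.f p22) (Y.f p28)) (h2 : Y.R (Y.f p22) (Y.f p24)) : False := by
  classical
  have ha : ∀ y z, Y.R Y.a y → Y.R Y.a z → y ≠ z → Y.R y z := by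
    intro y z hy hz hn
    obtain ⟨u, rfl⟩ := Y.R_a.1 hy
    obtain ⟨v, rfl⟩ := Y.R_a.1 hz
    have hn' : u ≠ v := fun h => hn (by rw [h])
    by_cases had : adj u v
    · exact (Y.Rf_adj had).2 h1
    · exact (Y.Rf_nadj had hn').2 h2
  have hx : ∀ x y z, Y.R x y → Y.R x z → y ≠ z → Y.R y z := by
    intro x y z hy hz hn
    obtain ⟨w, hw, hwa⟩ := Y.tr x Y.a
    rw [← Y.R_inv hw] at hy hz ⊢
    rw [hwa] at hy hz
    exact ha _ _ hy hz (fun h => hn (w.injective h))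
  have hs : ∀ x, ∑ y, io (y = x ∨ Y.R x y) = 113 := by
    intro x
    have h3 : ∀ y, io (y = x ∨ Y.R x y) = io (y = x) + io (Y.R x y) := by
      intro y
      by_cases hy : y = x
      · rw [io_t (Or.inl hy), io_t hy, hy, io_f (Y.Rirr x)]
      · rw [io_f hy, zero_add]
        apply io_c
        exact ⟨fun h => h.resolve_left hy, Or.inr⟩
    rw [Finset.sum_congr rfl (fun y _ => h3 y), Finset.sum_add_distrib, Y.row, sum_io]
    have : {y | y = x} = {x} := rfl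
    rw [this, Set.ncard_singleton]
  have hdj : ∀ x x', x ≠ x' → ¬ Y.R x x' → ∀ y, ¬ ((y = x ∨ Y.R x y) ∧ (y = x' ∨ Y.R x' y)) := by
    rintro x x' hn hR y ⟨h3, h4⟩
    rcases h3 with rfl | h3
    · rcases h4 with h4 | h4
      · exact hn h4
      · exact hR (Y.Rsymm h4)
    · rcases h4 with h4 | h4
      · exact hR (h4 ▸ h3)
      · exact hR (hx y x x' (Y.Rsymm h3) (Y.Rsymm h4) hn)
  have hca : Y.c ∈ Y.Ga := ⟨1, by rw [map_one]; rfl⟩
  have hac : Y.a ≠ Y.c := fun h => Y.a_notG (h ▸ hca)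
  have hRac := Y.R_ag hca
  obtain ⟨z, hz1, hz2⟩ : ∃ z, ¬ (z = Y.a ∨ Y.R Y.a z) ∧ ¬ (z = Y.c ∨ Y.R Y.c z) := by
    by_contra hc
    have h3 : ∀ z, 1 ≤ io (z = Y.a ∨ Y.R Y.a z) + io (z = Y.c ∨ Y.R Y.c z) := by
      intro z
      by_cases h4 : z = Y.a ∨ Y.R Y.a z
      · rw [io_t h4]; omega
      · by_cases h5 : z = Y.c ∨ Y.R Y.c z
        · rw [io_t h5]; omega
        · exact absurd ⟨z, h4, h5⟩ hc
    have h4 := Finset.sum_le_sum (fun z (_ : z ∈ (Finset.univ : Finset Ω)) => h3 z)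
    rw [Finset.sum_add_distrib, hs, hs, Finset.sum_const, Finset.card_univ, Y.hΩ, smul_eq_mul] at h4
    omega
  rw [not_or] at hz1 hz2
  have h3 : ∀ y, io (y = Y.a ∨ Y.R Y.a y) + io (y = Y.c ∨ Y.R Y.c y) + io (y = z ∨ Y.R z y) ≤ 1 := by
    intro y
    have q1 := hdj Y.a Y.c hac hRac y
    have q2 := hdj Y.a z (Ne.symm hz1.1) hz1.2 y
    have q3 := hdj Y.c z (Ne.symm hz2.1) hz2.2 y
    rcases io_cases (y = Y.a ∨ Y.R Y.a y) with ⟨e1, e2⟩ | ⟨e1, e2⟩ <;>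
      rcases io_cases (y = Y.c ∨ Y.R Y.c y) with ⟨e3, e4⟩ | ⟨e3, e4⟩ <;>
      rcases io_cases (y = z ∨ Y.R z y) with ⟨e5, e6⟩ | ⟨e5, e6⟩ <;> rw [e2, e4, e6] <;>
      first | omega | exact (q1 ⟨e1, e3⟩).elim | exact (q2 ⟨e1, e5⟩).elim | exact (q3 ⟨e3, e5⟩).elim
  have h4 := Finset.sum_le_sum (fun y (_ : y ∈ (Finset.univ : Finset Ω)) => h3 y)
  rw [Finset.sum_add_distrib, Finset.sum_add_distrib, hs, hs, hs, Finset.sum_const, Finset.card_univ, Y.hΩ,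
    smul_eq_mul] at h4
  omega

theorem key : Y.R (Y.f p22) (Y.f p28) ∧ ¬ Y.R (Y.f p22) (Y.f p24) := by
  have h := Y.dc _ Y.sum_all
  rcases io_cases (Y.R (Y.f p22) (Y.f p28)) with ⟨e1, e2⟩ | ⟨e1, e2⟩ <;>
    rcases io_cases (Y.R (Y.f p22) (Y.f p24)) with ⟨e3, e4⟩ | ⟨e3, e4⟩
  · exact (Y.not_both e1 e3).elim
  · exact ⟨e1, e3⟩
  · rw [e2, e4] at h; omega
  · rw [e2, e4] at h; omega

theorem Rf {u v : Lam} : Y.R (Y.f u) (Y.f v) ↔ adj u v := by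
  by_cases hv : u = v
  · subst hv
    exact ⟨fun h => absurd h (Y.Rirr _), fun h => absurd h (adj_irr u)⟩
  by_cases ha : adj u v
  · exact ⟨fun _ => ha, fun _ => (Y.Rf_adj ha).2 Y.key.1⟩
  · exact ⟨fun h => absurd ((Y.Rf_nadj ha hv).1 h) Y.key.2, fun h => absurd h ha⟩

/-! ### triangles -/

theorem T81 (u : Lam) : ∑ y ∈ Y.Gf, io (Y.R (Y.f u) y) = 81 := by
  have h := Y.row_f u
  rw [Y.sum_all, io_t Y.key.1, io_f Y.key.2] at h
  omega

theorem common {x x' : Ω} (h : Y.R x x') : ∑ y, io (Y.R x y) * io (Y.R x' y) = 30 := by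
  obtain ⟨w, hw, rfl, u, rfl⟩ := h
  rw [← Equiv.sum_comp w]
  have h1 : ∀ y, io (Y.R (w Y.a) (w y)) * io (Y.R (w (Y.f u)) (w y)) = io (Y.R Y.a y) * io (Y.R (Y.f u) y) := by
    intro y
    rw [io_c (Y.R_inv hw), io_c (Y.R_inv hw)]
  rw [Finset.sum_congr rfl (fun y _ => h1 y), Y.split, io_f Y.Raa, zero_mul, zero_add]
  have h2 : ∀ v, io (Y.R Y.a (Y.f v)) * io (Y.R (Y.f u) (Y.f v)) = io (adj u v) := by
    intro v
    rw [io_t (Y.R_a.2 ⟨v, rfl⟩), one_mul]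
    exact io_c Y.Rf
  have h3 : ∀ y ∈ Y.Gf, io (Y.R Y.a y) * io (Y.R (Y.f u) y) = 0 := by
    intro y hy
    rw [io_f (Y.R_ag (Y.mem_Gf.1 hy)), zero_mul]
  rw [Finset.sum_congr rfl (fun v _ => h2 v), Finset.sum_congr rfl h3, sum_adj, Finset.sum_const_zero]
  rfl

theorem T27 {u v : Lam} (h : adj u v) : ∑ y ∈ Y.Gf, io (Y.R (Y.f u) y) * io (Y.R (Y.f v) y) = 27 := by
  have h1 := Y.common (Y.Rf.2 h)
  rw [Y.split, io_t (Y.R_fa u), io_t (Y.R_fa v)] at h1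
  have h2 : ∀ w, io (Y.R (Y.f u) (Y.f w)) * io (Y.R (Y.f v) (Y.f w)) = io (adj u w ∧ adj v w) := by
    intro w
    rw [io_and, io_c Y.Rf, io_c Y.Rf]
  rw [Finset.sum_congr rfl (fun w _ => h2 w), sum_io, com h] at h1
  omega

theorem tri {u v w : Lam} (huv : adj u v) (huw : adj u w) (hvw : adj v w) {y : Ω} (hy : y ∈ Y.Ga) :
    ¬ (Y.R (Y.f u) y ∧ Y.R (Y.f v) y ∧ Y.R (Y.f w) y) ∧ (Y.R (Y.f u) y ∨ Y.R (Y.f v) y ∨ Y.R (Y.f w) y) := by
  have hle : ∀ y ∈ Y.Gf, io (Y.R (Y.f u) y) + io (Y.R (Y.f v) y) + io (Y.R (Y.f w) y) ≤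
      io (Y.R (Y.f u) y) * io (Y.R (Y.f v) y) + io (Y.R (Y.f u) y) * io (Y.R (Y.f w) y) +
        io (Y.R (Y.f v) y) * io (Y.R (Y.f w) y) + 1 := by
    intro y _
    rcases io_cases (Y.R (Y.f u) y) with ⟨e1, e2⟩ | ⟨e1, e2⟩ <;>
      rcases io_cases (Y.R (Y.f v) y) with ⟨e3, e4⟩ | ⟨e3, e4⟩ <;>
      rcases io_cases (Y.R (Y.f w) y) with ⟨e5, e6⟩ | ⟨e5, e6⟩ <;> simp only [e2, e4, e6] <;> norm_num
  have heq : ∑ y ∈ Y.Gf, (io (Y.R (Y.f u) y) + io (Y.R (Y.f v) y) + io (Y.R (Y.f w) y)) =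
      ∑ y ∈ Y.Gf, (io (Y.R (Y.f u) y) * io (Y.R (Y.f v) y) + io (Y.R (Y.f u) y) * io (Y.R (Y.f w) y) +
        io (Y.R (Y.f v) y) * io (Y.R (Y.f w) y) + 1) := by
    rw [Finset.sum_add_distrib, Finset.sum_add_distrib, Finset.sum_add_distrib, Finset.sum_add_distrib,
      Finset.sum_add_distrib, Y.T81, Y.T81, Y.T81, Y.T27 huv, Y.T27 huw, Y.T27 hvw, Finset.sum_const, Y.card_Gf]
    norm_num
  have h := (Finset.sum_eq_sum_iff_of_le hle).1 heq y (Y.mem_Gf.2 hy)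
  rcases io_cases (Y.R (Y.f u) y) with ⟨e1, e2⟩ | ⟨e1, e2⟩ <;>
      rcases io_cases (Y.R (Y.f v) y) with ⟨e3, e4⟩ | ⟨e3, e4⟩ <;>
      rcases io_cases (Y.R (Y.f w) y) with ⟨e5, e6⟩ | ⟨e5, e6⟩ <;> rw [e2, e4, e6] at h <;>
      first | exact ⟨fun h => by tauto, by tauto⟩ | exact absurd h (by norm_num)

end Cf2

end H64.RK
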