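import Cfsg.Agent.Lib.H64.RK.Graph

set_option autoImplicit false
set_option linter.all false
set_option maxRecDepth 10000

/-! The colourings of the 112 points. -/

namespace H64.RK

open H63.PC H63.OT H63.MTb MulAction
open H63.McL (G ψ MT TO πs rs w1 f1)
open H35.Net (force force_eq)

universe u

theorem exists_mask (P : ℕ → Prop) (n : ℕ) : ∃ m : ℕ, ∀ i, m.testBit i = true ↔ i < n ∧ P i := by
  induction n with
  | zero => exact ⟨0, fun i => by simp⟩
  | succ n ih =>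
    obtain ⟨m, hm⟩ := ih
    by_cases hP : P n
    · refine ⟨m ||| 2 ^ n, fun i => ?_⟩
      rw [Nat.testBit_or, Bool.or_eq_true, hm, Nat.testBit_two_pow, decide_eq_true_eq]
      constructor
      · rintro (⟨h1, h2⟩ | h)
        · exact ⟨by omega, h2⟩
        · subst h; exact ⟨by omega, hP⟩
      · rintro ⟨h1, h2⟩
        by_cases h3 : n = i
        · exact Or.inr h3
        · exact Or.inl ⟨by omega, h2⟩
    · refine ⟨m, fun i => ?_⟩
      rw [hm]
      constructor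
      · rintro ⟨h1, h2⟩; exact ⟨by omega, h2⟩
      · rintro ⟨h1, h2⟩
        refine ⟨?_, h2⟩
        rcases Nat.lt_or_ge i n with h3 | h3
        · exact h3
        · exfalso
          have : i = n := by omega
          subst this
          exact hP h2

theorem LM_lt' : Nat.blt LM (Nat.pow 2 275) = true := by decide +kernel
theorem CM_lt' : Nat.blt CM (Nat.pow 2 275) = true := by decide +kernel

theorem bit_lt {m i : ℕ} (h : Nat.blt m (Nat.pow 2 275) = true) (hi : m.testBit i = true) : i < 275 := by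
  by_contra hc
  have h1 : m < 2 ^ 275 := Nat.le_of_ble_eq_true h
  have h2 : m < 2 ^ i := lt_of_lt_of_le h1 (Nat.pow_le_pow_right (by norm_num) (by omega))
  rw [Nat.testBit_lt_two_pow h2] at hi
  exact absurd hi (by decide)

/-- the sets -/
noncomputable def hs (k x : ℕ) : ℕ := HST.get (Nat.add (Nat.mul 4 x) k)

theorem Cf2.enumY {Ω : Type u} [Fintype Ω] (Y : Cf2 Ω) {y : Ω} (hy : y ∈ Y.Ga) :
    ∃ k x, k < 4 ∧ CM.testBit x = true ∧ ∀ u : Lam, Y.R (Y.f u) y ↔ (hs k x).testBit u.1 = true := by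
  obtain ⟨m, hm⟩ := exists_mask (fun i => ∃ h : i < 275, ∃ h2 : LM.testBit i = true, Y.R (Y.f ⟨⟨i, h⟩, h2⟩) y) 275
  have hm' : ∀ u : Lam, m.testBit u.1 = true ↔ Y.R (Y.f u) y := by
    intro u
    rw [hm]
    constructor
    · rintro ⟨_, _, _, h⟩; exact h
    · intro h; exact ⟨u.1.2, u.1.2, u.2, h⟩
  have hG : Good MT.get LM m := by
    refine ⟨fun i hi => ?_, ?_, ?_⟩
    · obtain ⟨_, _, h2, _⟩ := (hm i).1 hi
      exact h2
    · intro a b c ha hb hc hab hac hbc h1 h2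
      have t := Y.tri (u := ⟨⟨a, bit_lt LM_lt' ha⟩, ha⟩) (v := ⟨⟨b, bit_lt LM_lt' hb⟩, hb⟩)
        (w := ⟨⟨c, bit_lt LM_lt' hc⟩, hc⟩) hab hac hbc hy
      by_contra h3
      rw [Bool.not_eq_false] at h3
      exact t.1 ⟨(hm' _).1 h1, (hm' _).1 h2, (hm' _).1 h3⟩
    · intro a b c ha hb hc hab hac hbc h1 h2
      have t := Y.tri (u := ⟨⟨a, bit_lt LM_lt' ha⟩, ha⟩) (v := ⟨⟨b, bit_lt LM_lt' hb⟩, hb⟩)
        (w := ⟨⟨c, bit_lt LM_lt' hc⟩, hc⟩) hab hac hbc hy
      rcases t.2 with h | h | h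
      · have := (hm' ⟨⟨a, bit_lt LM_lt' ha⟩, ha⟩).2 h
        rw [h1] at this; exact absurd this (by decide)
      · have := (hm' ⟨⟨b, bit_lt LM_lt' hb⟩, hb⟩).2 h
        rw [h2] at this; exact absurd this (by decide)
      · exact (hm' ⟨⟨c, bit_lt LM_lt' hc⟩, hc⟩).2 h
  obtain ⟨k', h1, h2⟩ := enum hG tree_ok
  refine ⟨k' % 4, k' / 4, Nat.mod_lt _ (by norm_num), h2, fun u => ?_⟩
  have e : hs (k' % 4) (k' / 4) = HST.get k' := by
    unfold hs
    congr 1
    exact Nat.div_add_mod k' 4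
  rw [e, ← h1, hm']

/-! ### closures -/

/-- image of a mask -/
noncomputable def imTn (T R n : ℕ) : ℕ :=
  Nat.rec (motive := fun _ => ℕ) 0 (fun i ih => Bool.rec (motive := fun _ => ℕ) ih
    (Nat.lor ih (Nat.shiftLeft 1 (a12 T i))) (Nat.beq (bt R i) 1)) n

theorem imTn_spec {T R n q : ℕ} (h : (imTn T R n).testBit q = true) : ∃ i < n, R.testBit i = true ∧ a12 T i = q := by
  induction n with
  | zero =>
    have h0 : imTn T R 0 = 0 := rfl
    rw [h0, Nat.zero_testBit] at h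
    exact absurd h (by decide)
  | succ n ih =>
    have e : imTn T R (n + 1) = Bool.rec (motive := fun _ => ℕ) (imTn T R n)
      (Nat.lor (imTn T R n) (Nat.shiftLeft 1 (a12 T n))) (Nat.beq (bt R n) 1) := rfl
    rw [e] at h
    cases hb : Nat.beq (bt R n) 1 with
    | true =>
      rw [hb] at h
      have h' : (Nat.lor (imTn T R n) (Nat.shiftLeft 1 (a12 T n))).testBit q = true := h
      rw [lor_bt, one_shift_testBit, decide_eq_true_eq] at h'
      rcases h' with h' | h'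
      · obtain ⟨i, hi, h1⟩ := ih h'
        exact ⟨i, Nat.lt_succ_of_lt hi, h1⟩
      · exact ⟨n, Nat.lt_succ_self n, bt_one.mp (Nat.eq_of_beq_eq_true hb), h'.symm⟩
    | false =>
      rw [hb] at h
      obtain ⟨i, hi, h1⟩ := ih h
      exact ⟨i, Nat.lt_succ_of_lt hi, h1⟩

theorem clo_pred {P : ℕ → Prop} {T T' : ℕ} (h : ∀ i, P i → P (a12 T i)) (h' : ∀ i, P i → P (a12 T' i)) :
    ∀ {n R : ℕ}, (∀ q, R.testBit q = true → P q) → ∀ q, (clo T T' n R).testBit q = true → P q := by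
  have st : ∀ T, (∀ i, P i → P (a12 T i)) → ∀ R, (∀ q, R.testBit q = true → P q) →
      ∀ q, (Nat.lor R (imT T R)).testBit q = true → P q := by
    intro T hT R hR q hq
    rw [lor_bt] at hq
    rcases hq with hq | hq
    · exact hR q hq
    · obtain ⟨i, _, h1, h2⟩ := imTn_spec (n := 275) hq
      rw [← h2]
      exact hT i (hR i h1)
  intro n
  induction n with
  | zero => intro R hR q hq; exact hR q hq
  | succ n ih =>
    intro R hR q hq
    have hq' : (force (Nat.lor R (imT T R)) fun R => force (Nat.lor R (imT T' R)) (clo T T' n)).testBit q = true := hq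
    rw [force_eq, force_eq] at hq'
    exact ih (st T' h' _ (st T h R hR)) q hq'

/-- the two elements -/
theorem gen2 (j : ℕ) (hj : j < 2) : ∃ s : G0, ∀ i : Fin 275, ((ψ s i : Fin 275) : ℕ) = a12 (gw j) i := by
  have key : ∀ (w : List H63.McL.Lo) (T : ℕ), w ∈ w1 → (w.all H63.McL.bas) = true →
      allN (fun i => Nat.beq (a12 T i) (evw TO w i)) 275 = true →
      ∃ s : G0, ∀ i : Fin 275, ((ψ s i : Fin 275) : ℕ) = a12 T i := by
    intro w T hw hb hT
    obtain ⟨g, hg⟩ := H63.McL.w_mem sx_mem sy_mem st_mem hb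
    have h1 : ∀ i : Fin 275, ((ψ g i : Fin 275) : ℕ) = a12 T i := by
      intro i
      rw [hg, ← evw_spec rs]
      exact (Nat.eq_of_beq_eq_true (allN_sound hT i i.2)).symm
    refine ⟨⟨g, ?_⟩, h1⟩
    show ψ g 0 = 0
    apply Fin.ext
    rw [hg, ← evw_spec rs]
    exact fixW_spec f1 w hw 0 (by simp)
  interval_cases j
  · exact key wd0 gw0 (by decide) (by decide) gw_ok0
  · exact key wd1 gw1 (by decide) (by decide) gw_ok1

/-- the property -/
def PP (k x : ℕ) : Prop := CM.testBit x = true ∧ ∃ s : G0, ∀ u : Lam,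
  ((hs k 1).testBit u.1 = true ↔ (hs k x).testBit (s • u).1 = true)

theorem PP_step {k j x : ℕ} (hk : k < 4) (hj : j < 2) (h : PP k x) : PP k (a12 (kp k j) x) := by
  obtain ⟨hx, s, hs'⟩ := h
  have h1 := forM_spec (kp_ok hk hj) (bit_lt CM_lt' hx) hx
  simp only [force_eq] at h1
  rw [band_iff] at h1
  obtain ⟨h2, h3⟩ := h1
  refine ⟨bt_one.mp (Nat.eq_of_beq_eq_true h2), ?_⟩
  obtain ⟨t, ht⟩ := gen2 j hj
  refine ⟨t * s, fun u => ?_⟩
  rw [hs' u, mul_smul]
  have h4 := Nat.eq_of_beq_eq_true (forM_spec h3 (s • u).1.2 (s • u).2)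
  rw [bt_eq_iff, ← ht] at h4
  rw [← smul_coe] at h4
  have e1 : HST.get (Nat.add (Nat.mul 4 x) k) = hs k x := rfl
  have e2 : HST.get (Nat.add (Nat.mul 4 (a12 (kp k j) x)) k) = hs k (a12 (kp k j) x) := rfl
  rw [e1, e2] at h4
  rw [h4]

theorem PP_all {k x : ℕ} (hk : k < 4) (hx : CM.testBit x = true) : PP k x := by
  have h1 := Nat.eq_of_beq_eq_true (cl_ok hk)
  refine clo_pred (P := PP k) (T := kp k 0) (T' := kp k 1) (fun i hi => PP_step hk (by norm_num) hi)
    (fun i hi => PP_step hk (by norm_num) hi) (n := 12) (R := Nat.shiftLeft 1 1) ?_ x (by rw [h1]; exact hx)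
  intro q hq
  rw [one_shift_testBit, decide_eq_true_eq] at hq
  subst hq
  exact ⟨bt_one.mp (Nat.eq_of_beq_eq_true n10), 1, fun u => by rw [one_smul]⟩

theorem Cf2.exists_k {Ω : Type u} [Fintype Ω] (Y : Cf2 Ω) : ∃ k < 4, ∀ x, CM.testBit x = true →
    ∃ y ∈ Y.Ga, ∀ u : Lam, Y.R (Y.f u) y ↔ (hs k x).testBit u.1 = true := by
  have hca : Y.c ∈ Y.Ga := ⟨1, by rw [map_one]; rfl⟩
  obtain ⟨k, x0, hk, hx0, h0⟩ := Y.enumY hca
  refine ⟨k, hk, fun x hx => ?_⟩
  obtain ⟨_, s0, hs0⟩ := PP_all hk hx0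
  obtain ⟨_, s, hs1⟩ := PP_all hk hx
  refine ⟨Y.θ (s * s0⁻¹) Y.c, ⟨_, rfl⟩, fun u => ?_⟩
  have h1 : Y.R (Y.f u) (Y.θ (s * s0⁻¹) Y.c) ↔ Y.R (Y.f (s0 • s⁻¹ • u)) Y.c := by
    rw [← Y.θR (s * s0⁻¹) (x := Y.f (s0 • s⁻¹ • u)), ← Y.fθ, mul_smul, inv_smul_smul, smul_inv_smul]
  rw [h1, h0, ← hs0, hs1, smul_inv_smul]

/-- the automorphism -/
noncomputable def sig (k : ℕ) (hk : k < 4) (u : Lam) : Lam :=
  ⟨⟨a12 (sgk k) u.1, by
    have h := allN_sound (si_ok hk) u.1 u.1.2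
    rw [band_iff] at h
    exact Nat.le_of_ble_eq_true h.2⟩, by
    have h := forM_spec (sg_ok hk) u.1.2 u.2
    rw [band_iff] at h
    exact bt_one.mp (Nat.eq_of_beq_eq_true h.1)⟩

theorem sig_inj (k : ℕ) (hk : k < 4) : Function.Injective (sig k hk) := by
  intro u v h
  have h1 := congrArg (fun x : Lam => a12 (sik k) x.1) h
  have h2 : ∀ w : Lam, a12 (sik k) (sig k hk w).1 = w.1 := by
    intro w
    have h := allN_sound (si_ok hk) w.1 w.1.2
    rw [band_iff] at h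
    exact Nat.eq_of_beq_eq_true h.1
  simp only [h2] at h1
  exact Subtype.ext (Fin.ext h1)

theorem sig_adj (k : ℕ) (hk : k < 4) (u v : Lam) : adj (sig k hk u) (sig k hk v) ↔ adj u v := by
  have h := forM_spec (sg_ok hk) u.1.2 u.2
  rw [band_iff, force_eq, force_eq] at h
  have h1 := Nat.eq_of_beq_eq_true (forM_spec h.2 v.1.2 v.2)
  rw [bt_eq_iff] at h1
  unfold adj
  exact Bool.eq_iff_iff.mp h1

theorem sig_hs {k x : ℕ} (hk : k < 4) (hx : CM.testBit x = true) (u : Lam) :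
    (hs k x).testBit (sig k hk u).1 = true ↔ (MT.get x).testBit u.1 = true := by
  have h := forM_spec (hs_ok hk) (bit_lt CM_lt' hx) hx
  rw [force_eq, force_eq] at h
  have h1 := Nat.eq_of_beq_eq_true (forM_spec h u.1.2 u.2)
  rw [bt_eq_iff] at h1
  exact Bool.eq_iff_iff.mp h1

/-- the other points -/
abbrev Cs := {i : Fin 275 // CM.testBit i = true}

/-- the coordinates -/
theorem Cf2.coords {Ω : Type u} [Fintype Ω] (Y : Cf2 Ω) : ∃ (τ : Lam ≃ Lam) (y : Cs → Ω), (∀ x, y x ∈ Y.Ga) ∧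
    (∀ u v, Y.R (Y.f (τ u)) (Y.f (τ v)) ↔ adj u v) ∧
    (∀ u (x : Cs), Y.R (Y.f (τ u)) (y x) ↔ (MT.get x.1).testBit u.1 = true) := by
  obtain ⟨k, hk, h⟩ := Y.exists_k
  choose y hy1 hy2 using fun x : Cs => h x.1 x.2
  refine ⟨Equiv.ofBijective (sig k hk) (Finite.injective_iff_bijective.1 (sig_inj k hk)), y, hy1, ?_, ?_⟩
  · intro u v
    rw [Y.Rf]
    exact sig_adj k hk u v
  · intro u x
    rw [hy2]
    exact sig_hs hk x.2 u

end H64.RK
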