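import Cfsg.Agent.Lib.H64.RK.Iso

set_option autoImplicit false
set_option linter.all false
set_option maxRecDepth 10000

/-! The graph is the McLaughlin graph. -/

namespace H64.RK

open H63.PC H63.OT H63.MTb MulAction
open H63.McL (G ψ MT A mem_A ψ_inj card_G card_range range_le card_A simple)

universe u

/-- the point 1 -/
def one1 : Fin 275 := ⟨1, by norm_num⟩

theorem lamSum (W : ℕ) : ∑ u : Lam, io (W.testBit u.1 = true) = cntM (Nat.land LM W) 275 := by
  rw [sum_io, ← ncard_mask]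
  refine (lam_ncard fun i => W.testBit i = true).trans ?_
  congr 1
  ext i
  exact land_bt.symm

theorem reidx (s : G0) (F : Lam → ℕ) : ∑ u, F (s • u) = ∑ u, F u :=
  Equiv.sum_comp (MulAction.toPerm s) F

theorem prs (s : G0) (i : Fin 275) (u : Lam) :
    (MT.get (ψ s i)).testBit (s • u).1 = (MT.get i).testBit u.1 := by
  rw [smul_coe]; exact pr _ _ _

theorem M1 {x : Fin 275} (hx : CM.testBit x = true) : ∑ u : Lam, io ((MT.get x).testBit u.1 = true) = 56 := by
  obtain ⟨s, rfl⟩ := F4 hx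
  rw [← reidx s, ← n5, ← lamSum]
  exact Finset.sum_congr rfl fun u _ => io_c (by rw [prs])

theorem M2 {x : Fin 275} (hx : CM.testBit x = true) {v : Lam} (hv : (MT.get x).testBit v.1 = true) :
    ∑ w : Lam, io ((MT.get x).testBit w.1 = true) * io (adj v w) = 10 := by
  obtain ⟨s, rfl⟩ := F4 hx
  obtain ⟨v, rfl⟩ : ∃ v', s • v' = v := ⟨s⁻¹ • v, smul_inv_smul _ _⟩
  rw [prs] at hv
  rw [← reidx s]
  have h1 := forM_spec n6 v.1.2 (land_bt.2 ⟨v.2, hv⟩)
  rw [← Nat.eq_of_beq_eq_true h1, ← lamSum]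
  apply Finset.sum_congr rfl
  intro w _
  rw [← io_and]
  apply io_c
  rw [prs, adj_inv, land_bt]
  rfl

theorem M3 {x x' : Fin 275} (hx : CM.testBit x = true) (hx' : CM.testBit x' = true) (hn : x ≠ x') :
    ∑ w : Lam, io ((MT.get x).testBit w.1 = true) * io ((MT.get x').testBit w.1 = true) = 20 ∧
      (MT.get x).testBit x' = true ∨
    ∑ w : Lam, io ((MT.get x).testBit w.1 = true) * io ((MT.get x').testBit w.1 = true) = 32 ∧
      (MT.get x).testBit x' = false := by
  obtain ⟨s, rfl⟩ := F4 hx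
  obtain ⟨z, rfl⟩ : ∃ z, ψ s z = x' := ⟨(ψ s)⁻¹ x', pinv' _ _⟩
  rw [CM_inv s.2] at hx'
  have hz : z ≠ ⟨1, by norm_num⟩ := fun h => hn (by rw [h])
  have h1 := forM_spec n7 z.2 hx'
  have h2 : Nat.beq (z : ℕ) 1 = false := by
    cases hc : Nat.beq (z : ℕ) 1 with
    | false => rfl
    | true => exact absurd (Fin.ext (Nat.eq_of_beq_eq_true hc)) hz
  rw [h2] at h1
  have h3 := Nat.eq_of_beq_eq_true h1
  rw [pr]
  have h4 : ∑ w : Lam, io ((MT.get (ψ s ⟨1, by norm_num⟩)).testBit w.1 = true) * io ((MT.get (ψ s z)).testBit w.1 = true)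
      = cntM (Nat.land LM (Nat.land (MT.get 1) (MT.get z))) 275 := by
    rw [← reidx s, ← lamSum]
    apply Finset.sum_congr rfl
    intro w _
    rw [← io_and]
    apply io_c
    rw [prs, prs, land_bt]
  rw [h4, h3]
  cases hb : (MT.get 1).testBit (z : ℕ) with
  | true =>
    left
    have h5 : Nat.beq (bt (MT.get 1) z) 1 = true := by rw [bt_one.mpr hb]; rfl
    rw [h5]
    exact ⟨rfl, rfl⟩
  | false =>
    right
    have h5 : Nat.beq (bt (MT.get 1) z) 1 = false := by
      cases hc : Nat.beq (bt (MT.get 1) z) 1 with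
      | false => rfl
      | true => rw [bt_one.mp (Nat.eq_of_beq_eq_true hc)] at hb; exact absurd hb (by decide)
    rw [h5]
    exact ⟨rfl, rfl⟩

theorem M4 {x : Fin 275} (hx : CM.testBit x = true) :
    ∑ z : Cs, io ((MT.get x).testBit z.1 = true) = 56 := by
  obtain ⟨s, rfl⟩ := F4 hx
  have h1 : {z : Cs | (MT.get (ψ s ⟨1, by norm_num⟩)).testBit z.1 = true}.ncard =
      {i : Fin 275 | CM.testBit i = true ∧ (MT.get (ψ s ⟨1, by norm_num⟩)).testBit i = true}.ncard := by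
    rw [← Set.ncard_image_of_injective _ Subtype.val_injective]
    congr 1
    ext i
    constructor
    · rintro ⟨v, hv, rfl⟩; exact ⟨v.2, hv⟩
    · rintro ⟨h1, h2⟩; exact ⟨⟨i, h1⟩, h2, rfl⟩
  rw [sum_io, h1]
  have h2 : {i : Fin 275 | CM.testBit i = true ∧ (MT.get (ψ s ⟨1, by norm_num⟩)).testBit i = true} =
      (ψ s) '' {i : Fin 275 | (Nat.land CM (MT.get 1)).testBit i = true} := by
    ext i
    constructor
    · rintro ⟨h3, h4⟩
      refine ⟨(ψ s)⁻¹ i, ?_, pinv' _ _⟩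
      rw [Set.mem_setOf_eq, land_bt]
      rw [← pinv' (ψ s) i, CM_inv s.2] at h3
      rw [← pinv' (ψ s) i, pr] at h4
      exact ⟨h3, h4⟩
    · rintro ⟨j, hj, rfl⟩
      rw [Set.mem_setOf_eq, land_bt] at hj
      refine ⟨by rw [CM_inv s.2]; exact hj.1, by rw [pr]; exact hj.2⟩
  rw [h2, Set.ncard_image_of_injective _ (ψ s).injective, ncard_mask, n8]

section
variable {Ω : Type u} [Fintype Ω] (Y : Cf2 Ω) (τ : Lam ≃ Lam) (y : Cs → Ω)

theorem yinj (h2 : ∀ u (x : Cs), Y.R (Y.f (τ u)) (y x) ↔ (MT.get x.1).testBit u.1 = true) : Function.Injective y := by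
  intro x x' h
  by_contra hn
  have hn' : x.1 ≠ x'.1 := fun h => hn (Subtype.ext h)
  have e : ∀ w : Lam, io ((MT.get x.1).testBit w.1 = true) * io ((MT.get x'.1).testBit w.1 = true) =
      io ((MT.get x.1).testBit w.1 = true) := by
    intro w
    have : ((MT.get x.1).testBit w.1 = true) ↔ ((MT.get x'.1).testBit w.1 = true) := by rw [← h2, ← h2, h]
    rw [← io_c this]
    rcases io_cases ((MT.get x.1).testBit w.1 = true) with ⟨_, e⟩ | ⟨_, e⟩ <;> rw [e]
  rcases M3 x.2 x'.2 hn' with ⟨h3, _⟩ | ⟨h3, _⟩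
  · rw [Finset.sum_congr rfl (fun w _ => e w), M1 x.2] at h3
    omega
  · rw [Finset.sum_congr rfl (fun w _ => e w), M1 x.2] at h3
    omega

theorem card_Cs : Fintype.card Cs = 162 := by
  rw [Fintype.card_subtype, ← cnt_eq, n2]

theorem sumG (h0 : ∀ x, y x ∈ Y.Ga) (hi : Function.Injective y) (F : Ω → ℕ) :
    ∑ z ∈ Y.Gf, F z = ∑ x : Cs, F (y x) := by
  classical
  have h1 : Y.Gf = Finset.univ.image y := by
    symm
    apply Finset.eq_of_subset_of_card_le
    · intro z hz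
      obtain ⟨x, _, rfl⟩ := Finset.mem_image.1 hz
      exact Y.mem_Gf.2 (h0 x)
    · rw [Y.card_Gf, Finset.card_image_of_injective _ hi, Finset.card_univ, card_Cs]
  rw [h1, Finset.sum_image (fun x _ y _ h => hi h)]

theorem gg (h0 : ∀ x, y x ∈ Y.Ga) (h1 : ∀ u v, Y.R (Y.f (τ u)) (Y.f (τ v)) ↔ adj u v)
    (h2 : ∀ u (x : Cs), Y.R (Y.f (τ u)) (y x) ↔ (MT.get x.1).testBit u.1 = true) (x x' : Cs) :
    Y.R (y x) (y x') ↔ (MT.get x.1).testBit x'.1 = true := by
  have hi := yinj Y τ y h2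
  have nga : ∀ x : Cs, ¬ Y.R (y x) Y.a := fun x h => Y.R_ag (h0 x) (Y.Rsymm h)
  -- degree
  have d1 : ∑ z : Cs, io (Y.R (y x) (y z)) = 56 := by
    have h := Y.row (y x)
    rw [Y.split, io_f (nga x), sumG Y y h0 hi, ← Equiv.sum_comp τ] at h
    have e : ∀ u, io (Y.R (y x) (Y.f (τ u))) = io ((MT.get x.1).testBit u.1 = true) := fun u =>
      io_c (by rw [Y.Rcomm, h2])
    rw [Finset.sum_congr rfl (fun u _ => e u), M1 x.2] at h
    omega
  -- common neighbours
  have d2 : ∀ v : Lam, (MT.get x.1).testBit v.1 = true →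
      ∑ z : Cs, io (Y.R (y x) (y z)) * io (Y.R (Y.f (τ v)) (y z)) = 20 := by
    intro v hv
    have h := Y.common (Y.Rsymm ((h2 v x).2 hv))
    rw [Y.split, io_f (nga x), zero_mul, zero_add, sumG Y y h0 hi, ← Equiv.sum_comp τ] at h
    have e : ∀ u, io (Y.R (y x) (Y.f (τ u))) * io (Y.R (Y.f (τ v)) (Y.f (τ u))) =
        io ((MT.get x.1).testBit u.1 = true) * io (adj v u) := fun u => by
      rw [io_c (h1 v u), io_c (Y.Rcomm.trans (h2 u x))]
    rw [Finset.sum_congr rfl (fun u _ => e u), M2 x.2 hv] at h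
    omega
  have d3 : ∑ z : Cs, io (Y.R (y x) (y z)) *
      (∑ w : Lam, io ((MT.get x.1).testBit w.1 = true) * io ((MT.get z.1).testBit w.1 = true)) = 1120 := by
    have e1 : ∀ z : Cs, io (Y.R (y x) (y z)) *
      (∑ w : Lam, io ((MT.get x.1).testBit w.1 = true) * io ((MT.get z.1).testBit w.1 = true)) =
      ∑ w : Lam, io ((MT.get x.1).testBit w.1 = true) * (io (Y.R (y x) (y z)) * io (Y.R (Y.f (τ w)) (y z))) := by
      intro z
      rw [Finset.mul_sum]
      apply Finset.sum_congr rfl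
      intro w _
      rw [io_c (h2 w z)]
      ring
    rw [Finset.sum_congr rfl (fun z _ => e1 z), Finset.sum_comm]
    have e2 : ∀ w : Lam, ∑ z : Cs, io ((MT.get x.1).testBit w.1 = true) *
        (io (Y.R (y x) (y z)) * io (Y.R (Y.f (τ w)) (y z))) = io ((MT.get x.1).testBit w.1 = true) * 20 := by
      intro w
      rw [← Finset.mul_sum]
      rcases io_cases ((MT.get x.1).testBit w.1 = true) with ⟨e3, e4⟩ | ⟨e3, e4⟩
      · rw [d2 w e3]
      · rw [e4, zero_mul, zero_mul]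
    rw [Finset.sum_congr rfl (fun w _ => e2 w), ← Finset.sum_mul, M1 x.2]; norm_num
  have hle : ∀ z ∈ (Finset.univ : Finset Cs), io (Y.R (y x) (y z)) * 20 ≤ io (Y.R (y x) (y z)) *
      (∑ w : Lam, io ((MT.get x.1).testBit w.1 = true) * io ((MT.get z.1).testBit w.1 = true)) := by
    intro z _
    rcases io_cases (Y.R (y x) (y z)) with ⟨e3, e4⟩ | ⟨e3, e4⟩
    · have hn : x.1 ≠ z.1 := by
        intro h
        have : x = z := Subtype.ext h
        rw [this] at e3
        exact Y.Rirr _ e3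
      rw [e4]
      rcases M3 x.2 z.2 hn with ⟨h3, _⟩ | ⟨h3, _⟩ <;> rw [h3] <;> norm_num
    · rw [e4, zero_mul, zero_mul]
  have heq : ∑ z : Cs, io (Y.R (y x) (y z)) * 20 = ∑ z : Cs, io (Y.R (y x) (y z)) *
      (∑ w : Lam, io ((MT.get x.1).testBit w.1 = true) * io ((MT.get z.1).testBit w.1 = true)) := by
    rw [d3, ← Finset.sum_mul, d1]; norm_num
  have h3 := (Finset.sum_eq_sum_iff_of_le hle).1 heq
  have h4 : ∀ z : Cs, Y.R (y x) (y z) → (MT.get x.1).testBit z.1 = true := by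
    intro z hz
    have h5 := h3 z (Finset.mem_univ _)
    rw [io_t hz] at h5
    have hn : x.1 ≠ z.1 := by
      intro h
      have : x = z := Subtype.ext h
      rw [this] at hz
      exact Y.Rirr _ hz
    rcases M3 x.2 z.2 hn with ⟨_, h6⟩ | ⟨h6, _⟩
    · exact h6
    · rw [h6] at h5; omega
  have hle2 : ∀ z ∈ (Finset.univ : Finset Cs), io (Y.R (y x) (y z)) ≤ io ((MT.get x.1).testBit z.1 = true) := by
    intro z _
    rcases io_cases (Y.R (y x) (y z)) with ⟨e3, e4⟩ | ⟨e3, e4⟩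
    · rw [e4, io_t (h4 z e3)]
    · rw [e4]; exact Nat.zero_le _
  have h7 := (Finset.sum_eq_sum_iff_of_le hle2).1 (by rw [d1, M4 x.2]) x' (Finset.mem_univ _)
  refine ⟨h4 x', fun h => ?_⟩
  rw [io_t h] at h7
  exact io_one h7

end

theorem Cf2.exists_equiv {Ω : Type u} [Fintype Ω] (Y : Cf2 Ω) :
    ∃ e : Fin 275 ≃ Ω, ∀ i j, Y.R (e i) (e j) ↔ (MT.get i).testBit j = true := by
  classical
  obtain ⟨τ, y, h0, h1, h2⟩ := Y.coords
  have h3 := gg Y τ y h0 h1 h2
  have hi := yinj Y τ y h2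
  let Φ : Fin 275 → Ω := fun i => if h : LM.testBit i = true then Y.f (τ ⟨i, h⟩) else
    if h' : CM.testBit i = true then y ⟨i, h'⟩ else Y.a
  have c3 : ∀ i : Fin 275, (∃ h : LM.testBit i = true, Φ i = Y.f (τ ⟨i, h⟩)) ∨
      (∃ h : CM.testBit i = true, Φ i = y ⟨i, h⟩) ∨ (i = 0 ∧ Φ i = Y.a) := by
    intro i
    by_cases h : LM.testBit i = true
    · left; exact ⟨h, dif_pos h⟩
    by_cases h' : CM.testBit i = true
    · right; left
      refine ⟨h', ?_⟩
      show (if h : LM.testBit i = true then _ else _) = _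
      rw [dif_neg h, dif_pos h']
    right; right
    constructor
    · rw [CM_iff] at h'
      by_contra hc
      exact h' ⟨hc, by cases hb : LM.testBit i with
        | false => rfl
        | true => exact absurd hb h⟩
    · show (if h : LM.testBit i = true then _ else _) = _
      rw [dif_neg h, dif_neg h']
  have inj : Function.Injective Φ := by
    intro i j hij
    rcases c3 i with ⟨ha, e1⟩ | ⟨ha, e1⟩ | ⟨ha, e1⟩ <;> rcases c3 j with ⟨hb, e2⟩ | ⟨hb, e2⟩ | ⟨hb, e2⟩ <;>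
      rw [e1, e2] at hij
    · exact congrArg Subtype.val (τ.injective (Y.finj hij))
    · exact absurd (hij ▸ h0 _) (Y.f_notG _)
    · exact absurd hij (Y.a_ne _)
    · exact absurd (hij ▸ h0 _) (Y.f_notG _)
    · exact congrArg Subtype.val (hi hij)
    · exact absurd (hij ▸ h0 _) Y.a_notG
    · exact absurd hij.symm (Y.a_ne _)
    · exact absurd (hij ▸ h0 _) Y.a_notG
    · rw [ha, hb]
  have bij : Function.Bijective Φ := by
    rw [Fintype.bijective_iff_injective_and_card]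
    exact ⟨inj, by rw [Fintype.card_fin, Y.hΩ]⟩
  have m0 : MT.get ((0 : Fin 275) : ℕ) = LM := LM_eq
  have cl : ∀ {i : Fin 275}, CM.testBit i = true → LM.testBit i = false := fun h => ((CM_iff _).1 h).2
  refine ⟨Equiv.ofBijective Φ bij, fun i j => ?_⟩
  show Y.R (Φ i) (Φ j) ↔ _
  rcases c3 i with ⟨ha, e1⟩ | ⟨ha, e1⟩ | ⟨ha, e1⟩ <;> rcases c3 j with ⟨hb, e2⟩ | ⟨hb, e2⟩ | ⟨hb, e2⟩ <;>
      rw [e1, e2]
  · exact h1 _ _
  · rw [h2, MT_symm]
  · rw [hb, MT_symm, m0]
    exact ⟨fun _ => ha, fun _ => Y.R_fa _⟩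
  · rw [Y.Rcomm, h2]
  · exact h3 _ _
  · rw [hb, MT_symm, m0, cl ha]
    exact ⟨fun h => absurd (Y.Rsymm h) (Y.R_ag (h0 _)), fun h => absurd h (by decide)⟩
  · rw [ha, m0]
    exact ⟨fun _ => hb, fun _ => Y.R_a.2 ⟨_, rfl⟩⟩
  · rw [ha, m0, cl hb]
    exact ⟨fun h => absurd h (Y.R_ag (h0 _)), fun h => absurd h (by decide)⟩
  · rw [ha, hb, m0, L0]
    exact ⟨fun h => absurd h Y.Raa, fun h => absurd h (by decide)⟩

/-! ### the group -/

theorem fin_step (W' : Subgroup (Equiv.Perm (Fin 275))) (h : W' ≤ A) (hc : Nat.card W' = 898128000) :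
    W' = ψ.range := by
  haveI := simple
  have h1 : W'.relIndex A ≤ 2 := by
    have h1 := Subgroup.relIndex_mul_relIndex (⊥ : Subgroup (Equiv.Perm (Fin 275))) W' A bot_le h
    rw [Subgroup.relIndex_bot_left, Subgroup.relIndex_bot_left, hc] at h1
    have h2 := card_A
    rw [← h1] at h2
    by_contra hcc
    have h3 : 3 ≤ W'.relIndex A := by omega
    have h4 := Nat.mul_le_mul_left 898128000 h3
    omega
  have h0 : W'.relIndex A ≠ 0 := Subgroup.index_ne_zero_of_finite (H := W'.subgroupOf A)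
  have h2 : W'.relIndex ψ.range ≤ 2 := (Subgroup.relIndex_le_of_le_right range_le h0).trans h1
  have h3 : (W'.comap ψ).index ≤ 2 := by rw [Subgroup.index_comap]; exact h2
  have h4 : (W'.comap ψ).index ≠ 0 := Subgroup.index_ne_zero_of_finite
  have h5 : (W'.comap ψ).Normal := by
    have : (W'.comap ψ).index = 1 ∨ (W'.comap ψ).index = 2 := by omega
    rcases this with h5 | h5
    · rw [Subgroup.index_eq_one.1 h5]; infer_instance
    · exact Subgroup.normal_of_index_eq_two h5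
  have h6 : W'.comap ψ = ⊤ := by
    rcases h5.eq_bot_or_eq_top with h6 | h6
    · exfalso
      rw [h6, Subgroup.index_bot, card_G] at h3
      omega
    · exact h6
  have h7 : ψ.range ≤ W' := by
    rintro _ ⟨g, rfl⟩
    have : g ∈ W'.comap ψ := by rw [h6]; trivial
    exact this
  exact (Subgroup.eq_of_le_of_card_ge h7 (by rw [hc, card_range])).symm

theorem Cf2.iso {Ω : Type u} [Fintype Ω] (Y : Cf2 Ω) (hW : Nat.card Y.W = 898128000) :
    Nonempty (Y.W ≃* G) := by
  obtain ⟨e, he⟩ := Y.exists_equiv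
  let c : Equiv.Perm Ω ≃* Equiv.Perm (Fin 275) := e.symm.permCongrHom
  have h1 : Nat.card (Y.W.map c.toMonoidHom) = 898128000 := by
    rw [← hW]
    exact (Nat.card_congr (Y.W.equivMapOfInjective _ c.injective).toEquiv).symm
  have h2 : Y.W.map c.toMonoidHom ≤ A := by
    rintro _ ⟨w, hw, rfl⟩
    rw [mem_A]
    intro i j
    apply Bool.eq_iff_iff.mpr
    have e1 : ∀ i, e (c.toMonoidHom w i) = w (e i) := by
      intro i
      show e (e.symm (w (e.symm.symm i))) = w (e i)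
      rw [Equiv.apply_symm_apply]; rfl
    rw [← he, ← he, e1, e1, Y.R_inv hw]
  have h3 := fin_step _ h2 h1
  exact ⟨((Y.W.equivMapOfInjective _ c.injective).trans (MulEquiv.subgroupCongr h3)).trans
    (MonoidHom.ofInjective ψ_inj).symm⟩

end H64.RK
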